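import Cfsg.Agent.USixCover.Points

/-!
Two hyperovals through one triangle in a totally isotropic plane; points with the same perpendicular
inside the perpendicular of a given one.
-/

set_option autoImplicit false

namespace CfsgLib.USixCover

open Matrix CfsgLib.UGeom

variable {F : Type*} [Field F] [Fintype F]

local notation "H" => Cfsg.hermForm 6 F 2
local notation "V" => (Fin 6 → F)
local notation "S" => Cfsg.SU 6 F 2
local notation "mat" A:max => (((A : S) : Matrix.SpecialLinearGroup (Fin 6) F) : Matrix (Fin 6) (Fin 6) F)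

theorem six (C : Conj F 2) {ω : F} (hω : ω ^ 2 + ω + 1 = 0) {a b c : V} (ha : H a a = 0) (hb : H b b = 0)
    (hc : H c c = 0) (hab : H a b = 0) (hac : H a c = 0) (hbc : H b c = 0)
    (h4 : H (a + b + c) (a + b + c) = 0) (h5 : H (a + ω • b + ω ^ 2 • c) (a + ω • b + ω ^ 2 • c) = 0)
    (h6 : H (a + ω ^ 2 • b + ω • c) (a + ω ^ 2 • b + ω • c) = 0) :
    T C a ha * (T C b hb * (T C c hc * (T C _ h4 * (T C _ h5 * T C _ h6)))) = 1 := by
  refine SU_ext fun x => ?_
  have hba := form_swap C hab
  have hca := form_swap C hac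
  have hcb := form_swap C hbc
  have two := two_eq_zero C
  simp only [SU_coe_mul, ← Matrix.mulVec_mulVec, T_apply, form_add_left, form_add_right C, form_smul_left,
    form_smul_right C, ha, hb, hc, hab, hac, hbc, hba, hca, hcb, mul_zero, add_zero, zero_add, mat_one]
  simp only [C.pow]
  have h3 : ω ^ 3 = 1 := by linear_combination (ω - 1) * hω
  match_scalars
  · ring
  · ring_nf
    linear_combination (2 * H x a) * two + (H x b + H x c) * hω + (H x b + H x c) * ω * h3
  · ring_nf
    linear_combination (2 * H x b) * two + (H x a + H x c) * hω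
      + (H x b + H x c * ω ^ 2 + H x b * (ω ^ 3 + 1)) * h3 + (H x c) * ω * h3
  · ring_nf
    linear_combination (2 * H x c) * two + (H x a + H x b) * hω
      + (H x c + H x b * ω ^ 2 + H x c * (ω ^ 3 + 1)) * h3 + (H x b) * ω * h3

/-- An explicit totally isotropic triangle. -/
theorem exists_triangle (C : Conj F 2) :
    ∃ a b c : V, H a a = 0 ∧ H b b = 0 ∧ H c c = 0 ∧ H a b = 0 ∧ H a c = 0 ∧ H b c = 0 ∧
      ∀ r s t : F, r • a + s • b + t • c = 0 → r = 0 ∧ s = 0 ∧ t = 0 := by
  have two := two_eq_zero C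
  refine ⟨![1, 1, 0, 0, 0, 0], ![0, 0, 1, 1, 0, 0], ![0, 0, 0, 0, 1, 1], ?_, ?_, ?_, ?_, ?_, ?_, ?_⟩
  all_goals first
    | (intro r s t h
       refine ⟨?_, ?_, ?_⟩
       · simpa using congrFun h 0
       · simpa using congrFun h 2
       · simpa using congrFun h 4)
    | (simp [form_eq C, Fin.sum_univ_six, one_add_one_eq_two, two])

/-- Two points outside the perpendicular of `v` with the same perpendicular inside it span a line with `v`. -/
theorem twin_cases (C : Conj F 2) {v u u' : V} (hv : H v v = 0) (hu : H u u = 0) (hu' : H u' u' = 0)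
    (hu0' : u' ≠ 0) (hvu : H v u ≠ 0) (hvu' : H v u' ≠ 0)
    (h : ∀ x : V, x ≠ 0 → H x x = 0 → H x v = 0 → H x u = 0 → H x u' = 0) :
    bar (T C u' hu') = bar (T C u hu) ∨
      bar (T C u' hu') = bar (T C v hv) * bar (T C u hu) * bar (T C v hv) := by
  have two := two_eq_zero C
  have huv : H u v ≠ 0 := fun e => hvu (form_swap C e)
  set k := (H u v)⁻¹ with hk
  have hk0 : k ≠ 0 := inv_ne_zero huv
  obtain ⟨e, he⟩ : ∃ e, e = k • u := ⟨_, rfl⟩
  have hee : H e e = 0 := by rw [he, form_smul_left, form_smul_right C, hu, mul_zero, mul_zero]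
  have hev : H e v = 1 := by rw [he, form_smul_left, hk, inv_mul_cancel₀ huv]
  have hve : H v e = 1 := by rw [← form_conj C e v, hev, map_one]
  have hTe : bar (T C u hu) = bar (T C e hee) := by subst he; rw [T_smul C hk0 u hu hee]
  rw [hTe]
  have key : ∀ x : V, H x v = 0 → H x e = 0 → H x u' = 0 := by
    intro x hxv hxe
    have hvx := form_swap C hxv
    have hex := form_swap C hxe
    have hisoU : ∀ y : V, H y y = 0 → H y v = 0 → H y e = 0 → H y u' = 0 := fun y hyy hyv hye => by
      by_cases hy0 : y = 0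
      · rw [hy0, form_zero_left]
      refine h y hy0 hyy hyv ?_
      rw [he, form_smul_right C] at hye
      exact (mul_eq_zero.1 hye).resolve_left ((map_ne_zero C.σ).2 hk0)
    by_cases hxx : H x x = 0
    · exact hisoU x hxx hxv hxe
    have hx1 : H x x = 1 := eq_one_of_fixed C (form_conj C x x) hxx
    obtain ⟨r, hrv, hre, hrx, hrr⟩ : ∃ r, H r v = 0 ∧ H r e = 0 ∧ H r x = 0 ∧ H r r = 1 := by
      by_contra hno
      push Not at hno
      have hiso : ∀ a, H a v = 0 ∧ H a e = 0 ∧ H a x = 0 → H a a = 0 := fun a ha => by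
        by_contra h0
        exact hno a ha.1 ha.2.1 ha.2.2 (eq_one_of_fixed C (form_conj C a a) h0)
      let f : V →ₗ[F] (Fin 3 → F) :=
        { toFun := fun y => ![H y v, H y e, H y x]
          map_add' := fun a b => by funext i; fin_cases i <;> simp [form_add_left]
          map_smul' := fun c a => by funext i; fin_cases i <;> simp [form_smul_left] }
      have hf : ¬ Function.Injective f := fun hi => by
        have := LinearMap.finrank_le_finrank_of_injective hi
        simp at this
      rw [← LinearMap.ker_eq_bot] at hf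
      obtain ⟨a, ha, ha0⟩ := (Submodule.ne_bot_iff _).1 hf
      have haP : H a v = 0 ∧ H a e = 0 ∧ H a x = 0 := ⟨congrFun ha 0, congrFun ha 1, congrFun ha 2⟩
      obtain ⟨y, hy⟩ := exists_form_ne_zero C ha0
      refine hy ?_
      have h' := polarize C (fun a => H a v = 0 ∧ H a e = 0 ∧ H a x = 0) (fun c a b ha hb => ⟨by
          rw [form_add_left, form_smul_left, ha.1, hb.1, mul_zero, add_zero], by
          rw [form_add_left, form_smul_left, ha.2.1, hb.2.1, mul_zero, add_zero], by
          rw [form_add_left, form_smul_left, ha.2.2, hb.2.2, mul_zero, add_zero]⟩) hiso (a := a)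
        (b := y - H y e • v - H y v • e - H y x • x) haP ⟨by
          simp [form_sub_left, form_smul_left, hv, hev, hxv], by
          simp [form_sub_left, form_smul_left, hee, hve, hxe], by
          simp [form_sub_left, form_smul_left, hvx, hex, hx1]⟩
      rw [form_sub_right C, form_sub_right C, form_sub_right C, form_smul_right C, form_smul_right C,
        form_smul_right C, haP.1, haP.2.1, haP.2.2] at h'
      simpa using h'
    obtain ⟨ω, hω⟩ := exists_omega C
    have hxr := form_swap C hrx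
    have e1 := hisoU (x + r)
      (by simp [form_add_left, form_add_right C, hx1, hrr, hrx, hxr, one_add_one_eq_two, two])
      (by simp [form_add_left, hxv, hrv]) (by simp [form_add_left, hxe, hre])
    have e2 := hisoU (x + ω • r)
      (by
        simp only [form_add_left, form_add_right C, form_smul_left, form_smul_right C, hx1, hrr, hrx, hxr,
          mul_zero, add_zero, mul_one, zero_add, C.pow]
        linear_combination (ω - 1) * hω + two)
      (by simp [form_add_left, form_smul_left, hxv, hrv]) (by simp [form_add_left, form_smul_left, hxe, hre])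
    rw [form_add_left] at e1 e2
    rw [form_smul_left] at e2
    linear_combination ω * (ω * e1 - e2) - (H x u') * hω + (H x u') * (ω + 1) * two
  obtain ⟨s, hs⟩ : ∃ s, s = C.σ (H v u') := ⟨_, rfl⟩
  obtain ⟨t, ht⟩ : ∃ t, t = C.σ (H e u') := ⟨_, rfl⟩
  have hdec : u' = s • e + t • v := ext_form C fun y => by
    have h0 := key (y - H y e • v - H y v • e) (by simp [form_sub_left, form_smul_left, hv, hev])
      (by simp [form_sub_left, form_smul_left, hee, hve])
    rw [form_sub_left, form_sub_left, form_smul_left, form_smul_left] at h0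
    have h1 := congrArg C.σ (show H y u' = H y e * H v u' + H y v * H e u' by linear_combination h0)
    rw [form_conj C, map_add, map_mul, map_mul, form_conj C y e, form_conj C y v] at h1
    rw [h1, form_add_left, form_smul_left, form_smul_left, hs, ht]
    ring
  have hs0 : s ≠ 0 := fun e0 => hvu' (by
    rw [hdec, e0, zero_smul, zero_add, form_smul_right C, hv, mul_zero])
  have hu'' : u' = s • (e + (s⁻¹ * t) • v) := by
    rw [smul_add, smul_smul, ← mul_assoc, mul_inv_cancel₀ hs0, one_mul, hdec]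
  obtain ⟨m, hm⟩ : ∃ m, m = s⁻¹ * t := ⟨_, rfl⟩
  rw [← hm] at hu''
  have hmiso : H (e + m • v) (e + m • v) = 0 := by
    have h2 := hu'
    rw [hu'', form_smul_left, form_smul_right C] at h2
    exact (mul_eq_zero.1 ((mul_eq_zero.1 h2).resolve_left hs0)).resolve_left ((map_ne_zero C.σ).2 hs0)
  have hTu : bar (T C u' hu') = bar (T C _ hmiso) := by
    subst hu''
    rw [T_smul C hs0 _ hmiso hu']
  rw [hTu]
  have hm2 : m = 0 ∨ m = 1 := by
    have h2 := hmiso
    simp only [form_add_left, form_add_right C, form_smul_left, form_smul_right C, hee, hev, hve, hv,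
      mul_zero, add_zero, zero_add, mul_one, C.pow] at h2
    rcases mul_eq_zero.1 (show m * (m + 1) = 0 by linear_combination h2) with h3 | h3
    · exact Or.inl h3
    · exact Or.inr (by linear_combination h3 - two)
  rcases hm2 with rfl | rfl
  · exact Or.inl (congrArg bar (T_congr C (by rw [zero_smul, add_zero]) _ hee))
  · refine Or.inr ?_
    have hconj := congrArg bar (T_conj C (T C v hv) e hee)
    simp only [bar, map_mul, map_inv] at hconj ⊢
    have hinv : ((QuotientGroup.mk' (Subgroup.center S)) (T C v hv))⁻¹ =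
        (QuotientGroup.mk' (Subgroup.center S)) (T C v hv) := inv_eq_of_mul_eq_one_right (bar_T_sq C v hv)
    rw [hinv] at hconj
    rw [hconj]
    refine congrArg _ (T_congr C ?_ _ _)
    rw [T_apply, hev]

/-- Two hyperovals through a triangle, and a non-commuting pair, abstractly. -/
theorem exists_ovals {Q : Type*} [Group Q] (C : Conj F 2) (φ : Q ≃* S ⧸ Subgroup.center S) {E : Set Q}
    (hE : Cfsg.IsThreeTranspositionGroup E) {p₀ : Q} (hp₀ : p₀ ∈ E) :
    (∃ p q, p ∈ E ∧ q ∈ E ∧ ¬ Commute p q) ∧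
    ∃ a b c x y z x' y' z', a ∈ E ∧ b ∈ E ∧ c ∈ E ∧ x ∈ E ∧ y ∈ E ∧ z ∈ E ∧ x' ∈ E ∧ y' ∈ E ∧ z' ∈ E ∧
      [a, b, c, x, y, z].Nodup ∧ [a, b, c, x', y', z'].Nodup ∧
      (∀ u ∈ [a, b, c, x, y, z, x', y', z'], ∀ w ∈ [a, b, c, x, y, z, x', y', z'], Commute u w) ∧
      a * (b * (c * (x * (y * z)))) = 1 ∧ a * (b * (c * (x' * (y' * z')))) = 1 ∧
      x ≠ x' ∧ x ≠ y' ∧ x ≠ z' := by
  have two := two_eq_zero C
  have hE' : Cfsg.IsThreeTranspositionGroup (φ '' E) := by
    refine ⟨⟨?_, ?_⟩, ?_, ?_⟩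
    · rintro _ ⟨x, hx, rfl⟩
      rw [MulEquiv.orderOf_eq]; exact hE.1.1 x hx
    · rintro _ ⟨x, hx, rfl⟩ _ ⟨y, hy, rfl⟩
      exact (hE.1.2 x hx y hy).imp (fun h => by rw [← map_mul, ← map_pow, h, map_one])
        (fun h => by rw [← map_mul, ← map_pow, h, map_one])
    · rintro g _ ⟨x, hx, rfl⟩
      obtain ⟨g, rfl⟩ := φ.surjective g
      exact ⟨g * x * g⁻¹, hE.2.1 g x hx, by simp⟩
    · have h := congrArg (Subgroup.map φ.toMonoidHom) hE.2.2
      rw [MonoidHom.map_closure, Subgroup.map_top_of_surjective _ φ.surjective] at h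
      exact h
  have hmem : ∀ (u : V) (hu : H u u = 0), u ≠ 0 → φ.symm (bar (T C u hu)) ∈ E := fun u hu hu0 => by
    obtain ⟨x, hx, hxe⟩ := mem_of_isTv C hE' ⟨p₀, hp₀, rfl⟩ ⟨u, hu, hu0, rfl⟩
    rw [← hxe, MulEquiv.symm_apply_apply]; exact hx
  obtain ⟨a, b, c, ha, hb, hc, hab, hac, hbc, hind⟩ := exists_triangle C
  have hba := form_swap C hab
  have hca := form_swap C hac
  have hcb := form_swap C hbc
  have ha0 : a ≠ 0 := fun e => one_ne_zero (hind 1 0 0 (by simp [e])).1
  constructor
  · obtain ⟨y, hy⟩ := exists_dual C ha0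
    obtain ⟨t₀, ht₀⟩ := exists_trace_one C
    have hay : H a y = 1 := by rw [← form_conj C y a, hy, map_one]
    set y' := y + (t₀ * H y y) • a with hy'
    have hyy : H y' y' = 0 := by
      simp only [hy', form_add_left, form_add_right C, form_smul_left, form_smul_right C, hy, hay, ha]
      rw [map_mul, form_conj C]
      linear_combination (H y y) * ht₀ + (H y y) * two
    have hy'a : H y' a = 1 := by rw [hy', form_add_left, hy, form_smul_left, ha, mul_zero, add_zero]
    have hy0 : y' ≠ 0 := fun e => by rw [e, form_zero_left] at hy'a; exact zero_ne_one hy'a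
    refine ⟨_, _, hmem y' hyy hy0, hmem a ha ha0, fun hcom => ?_⟩
    have := orth_of_commute C hyy ha hy0 ha0 (by simpa using hcom.map φ.toMonoidHom)
    rw [hy'a] at this
    exact one_ne_zero this
  obtain ⟨ω, hω⟩ := exists_omega C
  have hω0 : ω ≠ 0 := fun h => by rw [h] at hω; simp at hω
  have hω1 : ω ≠ 1 := fun h => by
    rw [h] at hω
    exact one_ne_zero (α := F) (by linear_combination hω - two)
  have hω21 : ω ^ 2 ≠ 1 := fun h => by
    rw [h] at hω
    exact hω0 (by linear_combination hω - two)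
  have hω2ω : ω ^ 2 ≠ ω := fun h => by
    rw [h] at hω
    exact one_ne_zero (α := F) (by linear_combination hω - ω * two)
  have hω3 : ω ^ 3 = 1 := by linear_combination (ω - 1) * hω
  have iso : ∀ r s t : F, H (r • a + s • b + t • c) (r • a + s • b + t • c) = 0 := fun r s t => by
    simp [form_add_left, form_add_right C, form_smul_left, form_smul_right C, ha, hb, hc, hab, hac, hbc,
      hba, hca, hcb]
  let pt : F → F → F → Q := fun r s t => φ.symm (bar (T C _ (iso r s t)))
  have hpt : ∀ r s t, φ (pt r s t) = bar (T C _ (iso r s t)) := fun r s t => φ.apply_symm_apply _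
  have hne0 : ∀ r s t : F, (r ≠ 0 ∨ s ≠ 0 ∨ t ≠ 0) → r • a + s • b + t • c ≠ 0 := fun r s t h e => by
    obtain ⟨h1, h2, h3⟩ := hind r s t e
    simp [h1, h2, h3] at h
  have hptE : ∀ r s t : F, (r ≠ 0 ∨ s ≠ 0 ∨ t ≠ 0) → pt r s t ∈ E := fun r s t h =>
    hmem _ (iso r s t) (hne0 r s t h)
  have hdiff : ∀ r s t r' s' t' : F, (r ≠ 0 ∨ s ≠ 0 ∨ t ≠ 0) → (r' ≠ 0 ∨ s' ≠ 0 ∨ t' ≠ 0) →
      pt r s t = pt r' s' t' → ∃ k, k * r = r' ∧ k * s = s' ∧ k * t = t' := by
    intro r s t r' s' t' h h' he
    have h1 := congrArg φ he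
    rw [hpt, hpt] at h1
    obtain ⟨k, hk⟩ := eq_smul_of_bar_eq C _ _ (hne0 r s t h) (hne0 r' s' t' h') h1
    obtain ⟨e1, e2, e3⟩ := hind (k * r - r') (k * s - s') (k * t - t') (by
      rw [smul_add, smul_add, smul_smul, smul_smul, smul_smul] at hk
      simp only [sub_smul]
      rw [← sub_eq_zero.2 hk]
      abel)
    exact ⟨k, sub_eq_zero.1 e1, sub_eq_zero.1 e2, sub_eq_zero.1 e3⟩
  have hcm : ∀ r s t r' s' t', Commute (pt r s t) (pt r' s' t') := fun r s t r' s' t' => by
    refine φ.injective ?_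
    rw [map_mul, map_mul, hpt, hpt]
    exact (commute_T C _ _ (by
      simp [form_add_left, form_add_right C, form_smul_left, form_smul_right C, ha, hb, hc, hab, hac, hbc,
        hba, hca, hcb])).eq
  refine ⟨pt 1 0 0, pt 0 1 0, pt 0 0 1, pt 1 1 1, pt 1 ω (ω ^ 2), pt 1 (ω ^ 2) ω, pt 1 ω 1,
    pt 1 (ω ^ 2) (ω ^ 2), pt 1 1 ω, ?_⟩
  refine ⟨hptE _ _ _ (by simp), hptE _ _ _ (by simp), hptE _ _ _ (by simp), hptE _ _ _ (by simp),
    hptE _ _ _ (by simp), hptE _ _ _ (by simp), hptE _ _ _ (by simp), hptE _ _ _ (by simp),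
    hptE _ _ _ (by simp), ?_, ?_, ?_, ?_, ?_, ?_, ?_, ?_⟩
  case refine_1 | refine_2 =>
    simp only [List.nodup_cons, List.mem_cons, List.not_mem_nil, or_false, not_or, List.nodup_nil,
      and_true]
    refine ⟨⟨?_, ?_, ?_, ?_, ?_⟩, ⟨?_, ?_, ?_, ?_⟩, ⟨?_, ?_, ?_⟩, ⟨?_, ?_⟩, ?_, not_false⟩
    all_goals
      intro h
      obtain ⟨k, h1, h2, h3⟩ := hdiff _ _ _ _ _ _ (by simp) (by simp) h
      simp only [mul_one, mul_zero] at h1 h2 h3
      first
        | exact one_ne_zero h1 | exact one_ne_zero h1.symm | exact one_ne_zero h2 | exact one_ne_zero h2.symm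
        | exact one_ne_zero h3 | exact one_ne_zero h3.symm
        | exact hω0 h2.symm | exact hω0 h3.symm | exact pow_ne_zero 2 hω0 h2.symm
        | exact pow_ne_zero 2 hω0 h3.symm
        | (subst h1
           simp [hω1, hω21, hω2ω, Ne.symm hω1, Ne.symm hω21, Ne.symm hω2ω] at h2 h3)
  case refine_6 | refine_7 | refine_8 =>
    intro h
    obtain ⟨k, h1, h2, h3⟩ := hdiff _ _ _ _ _ _ (by simp) (by simp) h
    simp only [mul_one] at h1 h2 h3
    subst h1
    simp [hω1, hω21, hω2ω, Ne.symm hω1, Ne.symm hω21, Ne.symm hω2ω] at h2 h3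
  · simp [hcm]
  · have i4 : H (a + b + c) (a + b + c) = 0 := by simpa using iso 1 1 1
    have i5 : H (a + ω • b + ω ^ 2 • c) (a + ω • b + ω ^ 2 • c) = 0 := by simpa using iso 1 ω (ω ^ 2)
    have i6 : H (a + ω ^ 2 • b + ω • c) (a + ω ^ 2 • b + ω • c) = 0 := by simpa using iso 1 (ω ^ 2) ω
    have e := congrArg bar (six C hω ha hb hc hab hac hbc i4 i5 i6)
    simp only [bar, map_mul, map_one] at e
    apply φ.injective
    rw [map_mul, map_mul, map_mul, map_mul, map_mul, map_one, hpt, hpt, hpt, hpt, hpt, hpt,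
      T_congr C (show (1 : F) • a + (0 : F) • b + (0 : F) • c = a by module) _ ha,
      T_congr C (show (0 : F) • a + (1 : F) • b + (0 : F) • c = b by module) _ hb,
      T_congr C (show (0 : F) • a + (0 : F) • b + (1 : F) • c = c by module) _ hc,
      T_congr C (show (1 : F) • a + (1 : F) • b + (1 : F) • c = a + b + c by module) _ i4,
      T_congr C (show (1 : F) • a + ω • b + ω ^ 2 • c = a + ω • b + ω ^ 2 • c by module) _ i5,
      T_congr C (show (1 : F) • a + ω ^ 2 • b + ω • c = a + ω ^ 2 • b + ω • c by module) _ i6]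
    exact e
  · have hwb : H (ω • b) (ω • b) = 0 := by rw [form_smul_left, form_smul_right C, hb, mul_zero, mul_zero]
    have i4 : H (a + ω • b + c) (a + ω • b + c) = 0 := by simpa using iso 1 ω 1
    have i5 : H (a + ω • ω • b + ω ^ 2 • c) (a + ω • ω • b + ω ^ 2 • c) = 0 := by
      simpa [smul_smul] using iso 1 (ω * ω) (ω ^ 2)
    have i6 : H (a + ω ^ 2 • ω • b + ω • c) (a + ω ^ 2 • ω • b + ω • c) = 0 := by
      simpa [smul_smul] using iso 1 (ω ^ 2 * ω) ω
    have e := congrArg bar (six C hω ha hwb hc (by rw [form_smul_right C, hab, mul_zero]) hac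
      (by rw [form_smul_left, hbc, mul_zero]) i4 i5 i6)
    rw [T_smul C hω0 b hb hwb] at e
    simp only [bar, map_mul, map_one] at e
    apply φ.injective
    rw [map_mul, map_mul, map_mul, map_mul, map_mul, map_one, hpt, hpt, hpt, hpt, hpt, hpt,
      T_congr C (show (1 : F) • a + (0 : F) • b + (0 : F) • c = a by module) _ ha,
      T_congr C (show (0 : F) • a + (1 : F) • b + (0 : F) • c = b by module) _ hb,
      T_congr C (show (0 : F) • a + (0 : F) • b + (1 : F) • c = c by module) _ hc,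
      T_congr C (show (1 : F) • a + ω • b + (1 : F) • c = a + ω • b + c by module) _ i4,
      T_congr C (show (1 : F) • a + ω ^ 2 • b + ω ^ 2 • c = a + ω • ω • b + ω ^ 2 • c by module) _ i5,
      T_congr C (show (1 : F) • a + (1 : F) • b + ω • c = a + ω ^ 2 • ω • b + ω • c by
        rw [smul_smul, ← pow_succ, hω3]; module) _ i6]
    exact e

/-- The abstract form of `twin_cases`. -/
theorem exists_twin {Q : Type*} [Group Q] (C : Conj F 2) (φ : Q ≃* S ⧸ Subgroup.center S) {E : Set Q}
    (hE : Cfsg.IsThreeTranspositionGroup E) {p q q' : Q} (hp : p ∈ E) (hq : q ∈ E) (hq' : q' ∈ E)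
    (hpq : ¬ Commute p q) (hpq' : ¬ Commute p q')
    (h : ∀ x ∈ E, Commute x p → Commute x q → Commute x q') : q' = q ∨ q' = p * q * p := by
  have hcm : ∀ x y : Q, Commute (φ x) (φ y) ↔ Commute x y := fun x y =>
    ⟨fun h => φ.injective (by rw [map_mul, map_mul, h.eq]), fun h => h.map φ.toMonoidHom⟩
  have hE' : Cfsg.IsThreeTranspositionGroup (φ '' E) := by
    refine ⟨⟨?_, ?_⟩, ?_, ?_⟩
    · rintro _ ⟨x, hx, rfl⟩
      rw [MulEquiv.orderOf_eq]; exact hE.1.1 x hx
    · rintro _ ⟨x, hx, rfl⟩ _ ⟨y, hy, rfl⟩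
      exact (hE.1.2 x hx y hy).imp (fun h => by rw [← map_mul, ← map_pow, h, map_one])
        (fun h => by rw [← map_mul, ← map_pow, h, map_one])
    · rintro g _ ⟨x, hx, rfl⟩
      obtain ⟨g, rfl⟩ := φ.surjective g
      exact ⟨g * x * g⁻¹, hE.2.1 g x hx, by simp⟩
    · have h := congrArg (Subgroup.map φ.toMonoidHom) hE.2.2
      rw [MonoidHom.map_closure, Subgroup.map_top_of_surjective _ φ.surjective] at h
      exact h
  obtain ⟨v, hv, hv0, ev⟩ := isTv_of_mem C hE' ⟨p, hp, rfl⟩
  obtain ⟨u, hu, hu0, eu⟩ := isTv_of_mem C hE' ⟨q, hq, rfl⟩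
  obtain ⟨u', hu', hu0', eu'⟩ := isTv_of_mem C hE' ⟨q', hq', rfl⟩
  have n1 : H v u ≠ 0 := fun e => hpq ((hcm p q).1 (by rw [ev, eu]; exact commute_T C hv hu e))
  have n2 : H v u' ≠ 0 := fun e => hpq' ((hcm p q').1 (by rw [ev, eu']; exact commute_T C hv hu' e))
  refine (twin_cases C hv hu hu' hu0' n1 n2 fun x hx0 hxx hxv hxu => ?_).imp (fun e => ?_) (fun e => ?_)
  · obtain ⟨y, hy, ey⟩ := mem_of_isTv C hE' ⟨p, hp, rfl⟩ ⟨x, hxx, hx0, rfl⟩
    refine orth_of_commute C hxx hu' hx0 hu0' ?_
    rw [← ey, ← eu']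
    exact (hcm _ _).2 (h y hy ((hcm y p).1 (by rw [ey, ev]; exact commute_T C hxx hv hxv))
      ((hcm y q).1 (by rw [ey, eu]; exact commute_T C hxx hu hxu)))
  · exact φ.injective (by rw [eu', eu, e])
  · exact φ.injective (by rw [map_mul, map_mul, eu', eu, ev, e])

end CfsgLib.USixCover
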