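import Cfsg.Agent.USixCover.Basic

/-!
Lifting the involutions of `PSU₆(2)` to a central extension by a group of order two.
-/

set_option autoImplicit false

namespace CfsgLib.USixCover

open Matrix CfsgLib.UGeom
open scoped commutatorElement

variable {F : Type*} [Field F] [Fintype F]

local notation "H" => Cfsg.hermForm 6 F 2
local notation "V" => (Fin 6 → F)
local notation "S" => Cfsg.SU 6 F 2
local notation "mat" A:max => (((A : S) : Matrix.SpecialLinearGroup (Fin 6) F) : Matrix (Fin 6) (Fin 6) F)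

/-- A central extension of `PSU₆(2)` whose kernel consists of central elements squaring to one. -/
structure Ext (F : Type*) [Field F] (X : Type*) [Group X] where
  /-- the projection -/
  π : X →* Cfsg.SU 6 F 2 ⧸ Subgroup.center (Cfsg.SU 6 F 2)
  surj : Function.Surjective π
  central : ∀ k, π k = 1 → ∀ a, Commute k a
  exp_two : ∀ k, π k = 1 → k * k = 1

variable {X : Type*} [Group X]

theorem commutator_central {k l : X} (hk : ∀ a, Commute k a) (hl : ∀ a, Commute l a) (A B : X) :
    ⁅k * A, l * B⁆ = ⁅A, B⁆ := by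
  calc ⁅k * A, l * B⁆ = k * (A * (l * B) * A⁻¹) * k⁻¹ * (B⁻¹ * l⁻¹) := by
        rw [commutatorElement_def]; group
    _ = A * (l * B) * A⁻¹ * (B⁻¹ * l⁻¹) := by rw [(hk _).eq, mul_inv_cancel_right]
    _ = A * l * (B * A⁻¹ * B⁻¹) * l⁻¹ := by group
    _ = l * (A * (B * A⁻¹ * B⁻¹)) * l⁻¹ := by rw [← (hl A).eq]; group
    _ = ⁅A, B⁆ := by rw [(hl _).eq, mul_inv_cancel_right, commutatorElement_def]; group

theorem sq_eq_of_conj (E : Ext F X) {a b g : X} (hb : E.π b * E.π b = 1)
    (h : E.π a = E.π g * E.π b * (E.π g)⁻¹) : a * a = b * b := by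
  set k := a * (g * b * g⁻¹)⁻¹ with hkdef
  have hk : E.π k = 1 := by rw [hkdef, map_mul, map_inv, map_mul, map_mul, map_inv, h, mul_inv_cancel]
  have ha : a = k * (g * b * g⁻¹) := by rw [hkdef, inv_mul_cancel_right]
  have hbb : ∀ y, Commute (b * b) y := E.central _ (by rw [map_mul, hb])
  calc a * a = (k * k) * ((g * b * g⁻¹) * (g * b * g⁻¹)) := by
        rw [ha, Commute.mul_mul_mul_comm ((E.central k hk _).symm)]
    _ = g * (b * b) * g⁻¹ := by rw [E.exp_two k hk, one_mul]; group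
    _ = b * b := by rw [← (hbb g).eq, mul_inv_cancel_right]

/-- The image of an element of `SU₆(2)` in `PSU₆(2)`. -/
abbrev bar (g : S) : S ⧸ Subgroup.center S := QuotientGroup.mk' (Subgroup.center S) g

theorem T_mul_self (C : Conj F 2) (v : V) (hv : H v v = 0) : T C v hv * T C v hv = 1 := by
  rw [T, utv_mul, ← utv_zero C v hv]
  congr 1
  rw [one_add_one_eq_two, two_eq_zero C]

theorem bar_T_sq (C : Conj F 2) (v : V) (hv : H v v = 0) :
    bar (T C v hv) * bar (T C v hv) = 1 := by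
  rw [← map_mul, T_mul_self, map_one]

/-- Orthogonal transvections have commuting lifts. -/
theorem commute_lifts (E : Ext F X) (C : Conj F 2) {v w : V} (hv : H v v = 0) (hw : H w w = 0)
    (hvw : H v w = 0) (hv0 : v ≠ 0) (hw0 : w ≠ 0) {a b : X} (ha : E.π a = bar (T C v hv))
    (hb : E.π b = bar (T C w hw)) : Commute a b := by
  by_cases h1 : ∃ c : F, c • v = w
  · obtain ⟨c, rfl⟩ := h1
    have hc : c ≠ 0 := fun h => hw0 (by rw [h, zero_smul])
    have hab : E.π (b * a⁻¹) = 1 := by rw [map_mul, map_inv, ha, hb, T_smul C hc v hv hw, mul_inv_cancel]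
    rw [show b = b * a⁻¹ * a by group]
    exact Commute.mul_right ((E.central _ hab a).symm) (Commute.refl a)
  push Not at h1
  have h2 : ∀ c : F, c • w ≠ v := fun c h => by
    have hc : c ≠ 0 := fun hc => hv0 (by rw [← h, hc, zero_smul])
    exact h1 c⁻¹ (by rw [← h, smul_smul, inv_mul_cancel₀ hc, one_smul])
  obtain ⟨A, B, hA, hB, hAB⟩ := exists_commutator C hv hw hvw hv0 hw0 h1 h2
  obtain ⟨A', hA'⟩ := E.surj (bar A)
  obtain ⟨B', hB'⟩ := E.surj (bar B)
  have key : ∀ (g : S) (g' : X), E.π g' = bar g → Commute g (T C v hv) →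
      ∃ k, (∀ y, Commute k y) ∧ a * g' * a⁻¹ = k * g' := by
    intro g g' hg hc
    refine ⟨a * g' * a⁻¹ * g'⁻¹, E.central _ ?_, by group⟩
    rw [map_mul, map_mul, map_mul, map_inv, map_inv, ha, hg]
    rw [((hc.map (QuotientGroup.mk' (Subgroup.center S))).symm).eq]
    group
  obtain ⟨k, hk, hka⟩ := key A A' hA' hA
  obtain ⟨l, hl, hlb⟩ := key B B' hB' hB
  have hfix : a * ⁅A', B'⁆ * a⁻¹ = ⁅A', B'⁆ := by
    rw [show a * ⁅A', B'⁆ * a⁻¹ = ⁅a * A' * a⁻¹, a * B' * a⁻¹⁆ by
      rw [commutatorElement_def, commutatorElement_def]; group, hka, hlb, commutator_central hk hl]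
  have hb' : E.π (b * ⁅A', B'⁆⁻¹) = 1 := by
    rw [map_mul, map_inv, map_commutatorElement, hA', hB', hb, hAB, ← map_commutatorElement, mul_inv_cancel]
  rw [show b = b * ⁅A', B'⁆⁻¹ * ⁅A', B'⁆ by group]
  exact Commute.mul_right ((E.central _ hb' a).symm) (mul_inv_eq_iff_eq_mul.1 hfix)

theorem sq_eq_of_one (E : Ext F X) (C : Conj F 2) {v z : V} (hv : H v v = 0) (hz : H z z = 0)
    (h : H z v = 1) {a c : X} (ha : E.π a = bar (T C v hv)) (hc : E.π c = bar (T C z hz)) :
    a * a = c * c := by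
  have hb := congrArg bar (braid C hv hz h)
  simp only [bar, map_mul, map_inv] at hb
  refine sq_eq_of_conj E (g := c⁻¹ * a) (by rw [hc, bar_T_sq]) ?_
  rw [map_mul, map_inv, ha, hc]
  simp only [bar] at hb ⊢
  generalize QuotientGroup.mk' (Subgroup.center S) (T C v hv) = x at hb ⊢
  generalize QuotientGroup.mk' (Subgroup.center S) (T C z hz) = y at hb ⊢
  calc x = y⁻¹ * (y * x * y⁻¹) * y := by group
    _ = y⁻¹ * x * y * (y⁻¹ * x)⁻¹ := by rw [hb]; group

theorem sq_eq_orth (E : Ext F X) (C : Conj F 2) {v w : V} (hv : H v v = 0) (hw : H w w = 0)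
    (hvw : H v w = 0) (hv0 : v ≠ 0) (hne : ∀ c : F, c • v ≠ w) {a b : X}
    (ha : E.π a = bar (T C v hv)) (hb : E.π b = bar (T C w hw)) : a * a = b * b := by
  obtain ⟨z, hzz, hzv, hzw⟩ := exists_iso_partner C hv0 hv hne hvw 1
  obtain ⟨c, hc⟩ := E.surj (bar (T C z hzz))
  exact (sq_eq_of_one E C hv hzz hzv ha hc).trans (sq_eq_of_one E C hw hzz hzw hb hc).symm

/-- Every lift of a transvection is an involution. -/
theorem lift_sq (E : Ext F X) (C : Conj F 2) {v : V} (hv : H v v = 0) (hv0 : v ≠ 0) {a : X}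
    (ha : E.π a = bar (T C v hv)) : a * a = 1 := by
  obtain ⟨w, hw, hw0, hvw, hne⟩ : ∃ w, H w w = 0 ∧ w ≠ 0 ∧ H v w = 0 ∧ ∀ c : F, c • v ≠ w := by
    obtain ⟨y, hy⟩ := exists_dual C hv0
    let f : V →ₗ[F] (Fin 2 → F) :=
      { toFun := fun x => ![H x v, H x y]
        map_add' := fun a b => by funext i; fin_cases i <;> simp [form_add_left]
        map_smul' := fun c a => by funext i; fin_cases i <;> simp [form_smul_left] }
    by_contra hno
    push Not at hno
    have hker : ∀ x, H x v = 0 ∧ H x y = 0 → x ≠ 0 → H x x = 1 := fun x hx hx0 => by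
      refine eq_one_of_fixed C (form_conj C x x) fun h => ?_
      obtain ⟨c, rfl⟩ := hno x h hx0 (form_swap C hx.1)
      have h3 := hx.2
      rw [form_smul_left, ← form_conj C y v, hy, map_one, mul_one] at h3
      exact hx0 (by rw [h3, zero_smul])
    have hf : ¬ Function.Injective f := fun hi => by
      have := LinearMap.finrank_le_finrank_of_injective hi
      simp at this
    rw [← LinearMap.ker_eq_bot] at hf
    obtain ⟨u, hu, hu0⟩ := (Submodule.ne_bot_iff _).1 hf
    let g : V →ₗ[F] (Fin 3 → F) :=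
      { toFun := fun x => ![H x v, H x y, H x u]
        map_add' := fun a b => by funext i; fin_cases i <;> simp [form_add_left]
        map_smul' := fun c a => by funext i; fin_cases i <;> simp [form_smul_left] }
    have hg : ¬ Function.Injective g := fun hi => by
      have := LinearMap.finrank_le_finrank_of_injective hi
      simp at this
    rw [← LinearMap.ker_eq_bot] at hg
    obtain ⟨u', hu', hu'0⟩ := (Submodule.ne_bot_iff _).1 hg
    have a0 : H u v = 0 ∧ H u y = 0 := ⟨congrFun hu 0, congrFun hu 1⟩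
    have a1 : H u' v = 0 ∧ H u' y = 0 := ⟨congrFun hu' 0, congrFun hu' 1⟩
    have a2 : H u' u = 0 := congrFun hu' 2
    have huu := hker u a0 hu0
    have hsum : u + u' ≠ 0 := fun h0 => by
      have h4 : H (u + u') u = 0 := by rw [h0, form_zero_left]
      rw [form_add_left, huu, a2, add_zero] at h4
      exact one_ne_zero h4
    have h5 := hker (u + u') ⟨by rw [form_add_left, a0.1, a1.1, add_zero],
      by rw [form_add_left, a0.2, a1.2, add_zero]⟩ hsum
    rw [form_add_left, form_add_right C, form_add_right C, huu, a2, form_swap C a2, hker u' a1 hu'0,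
      add_zero, zero_add, one_add_one_eq_two, two_eq_zero C] at h5
    exact zero_ne_one h5
  obtain ⟨ω, hω⟩ := exists_omega C
  have hwv := form_swap C hvw
  have iso : ∀ c : F, H (v + c • w) (v + c • w) = 0 := fun c => by
    simp [form_add_left, form_add_right C, form_smul_left, form_smul_right C, hv, hw, hvw, hwv]
  have orth : ∀ c c' : F, H (v + c • w) (v + c' • w) = 0 := fun c c' => by
    simp [form_add_left, form_add_right C, form_smul_left, form_smul_right C, hv, hw, hvw, hwv]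
  have orth0 : ∀ c : F, H v (v + c • w) = 0 := fun c => by
    simp [form_add_right C, form_smul_right C, hv, hvw]
  have orth1 : ∀ c : F, H w (v + c • w) = 0 := fun c => by
    simp [form_add_right C, form_smul_right C, hw, hwv]
  have indep : ∀ c : F, c ≠ 0 → ∀ k : F, k • v ≠ v + c • w := fun c hc k h => by
    apply hne (c⁻¹ * (k - 1))
    rw [← smul_smul, sub_smul, one_smul, h, add_sub_cancel_left, smul_smul, inv_mul_cancel₀ hc, one_smul]
  have ne0 : ∀ c : F, v + c • w ≠ 0 := fun c h => by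
    rcases eq_or_ne c 0 with rfl | hc
    · exact hv0 (by simpa using h)
    · exact indep c hc 0 (by rw [zero_smul, h])
  have hω0 : ω ≠ 0 := fun h => by rw [h] at hω; simp at hω
  have h3 : H (v + w) (v + w) = 0 := by simpa using iso 1
  obtain ⟨b, hb⟩ := E.surj (bar (T C w hw))
  obtain ⟨c₁, hc₁⟩ := E.surj (bar (T C _ (iso 1)))
  obtain ⟨c₂, hc₂⟩ := E.surj (bar (T C _ (iso ω)))
  obtain ⟨c₃, hc₃⟩ := E.surj (bar (T C _ (iso (ω ^ 2))))
  have hprod : E.π (a * (b * (c₁ * (c₂ * c₃)))) = 1 := by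
    rw [map_mul, map_mul, map_mul, map_mul, ha, hb, hc₁, hc₂, hc₃,
      T_congr C (show v + (1 : F) • w = v + w by rw [one_smul]) (iso 1) h3]
    simp only [bar, ← map_mul]
    rw [five C hω hv hw hvw h3 (iso ω) (iso (ω ^ 2)), map_one]
  have sb := sq_eq_orth E C hv hw hvw hv0 hne ha hb
  have s1 := sq_eq_orth E C hv (iso 1) (orth0 1) hv0 (indep 1 one_ne_zero) ha hc₁
  have s2 := sq_eq_orth E C hv (iso ω) (orth0 ω) hv0 (indep ω hω0) ha hc₂
  have s3 := sq_eq_orth E C hv (iso (ω ^ 2)) (orth0 _) hv0 (indep _ (pow_ne_zero 2 hω0)) ha hc₃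
  have cab := commute_lifts E C hv hw hvw hv0 hw0 ha hb
  have ca1 := commute_lifts E C hv (iso 1) (orth0 1) hv0 (ne0 1) ha hc₁
  have ca2 := commute_lifts E C hv (iso ω) (orth0 ω) hv0 (ne0 ω) ha hc₂
  have ca3 := commute_lifts E C hv (iso (ω ^ 2)) (orth0 _) hv0 (ne0 _) ha hc₃
  have cb1 := commute_lifts E C hw (iso 1) (orth1 1) hw0 (ne0 1) hb hc₁
  have cb2 := commute_lifts E C hw (iso ω) (orth1 ω) hw0 (ne0 ω) hb hc₂
  have cb3 := commute_lifts E C hw (iso (ω ^ 2)) (orth1 _) hw0 (ne0 _) hb hc₃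
  have c12 := commute_lifts E C (iso 1) (iso ω) (orth 1 ω) (ne0 1) (ne0 ω) hc₁ hc₂
  have c13 := commute_lifts E C (iso 1) (iso (ω ^ 2)) (orth 1 _) (ne0 1) (ne0 _) hc₁ hc₃
  have c23 := commute_lifts E C (iso ω) (iso (ω ^ 2)) (orth ω _) (ne0 ω) (ne0 _) hc₂ hc₃
  have hsq := E.exp_two _ hprod
  rw [Commute.mul_mul_mul_comm ((cab.mul_right (ca1.mul_right (ca2.mul_right ca3))).symm),
    Commute.mul_mul_mul_comm ((cb1.mul_right (cb2.mul_right cb3)).symm),
    Commute.mul_mul_mul_comm ((c12.mul_right c13).symm), Commute.mul_mul_mul_comm c23.symm,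
    ← sb, ← s1, ← s2, ← s3] at hsq
  have hs : E.π (a * a) = 1 := by rw [map_mul, ha, bar_T_sq]
  have h4 := E.exp_two _ hs
  rw [h4, mul_one, ← mul_assoc, h4, one_mul] at hsq
  exact hsq

/-- An element of `PSU₆(2)` of square one has a lift of square one. -/
theorem exists_lift (E : Ext F X) (C : Conj F 2) (x : S ⧸ Subgroup.center S) (hx : x * x = 1) :
    ∃ y : X, E.π y = x ∧ y * y = 1 := by
  obtain ⟨g, rfl⟩ := QuotientGroup.mk'_surjective (Subgroup.center S) x
  rw [← map_mul, QuotientGroup.mk'_apply, QuotientGroup.eq_one_iff] at hx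
  have h3 : (g * g) ^ 3 = 1 := by
    have := pow_card_eq_one' (x := (⟨g * g, hx⟩ : Subgroup.center S))
    rw [card_center_SU C (by norm_num)] at this
    simpa using congrArg Subtype.val this
  have hz : ∀ y : S, Commute (g * g) y := fun y => (Subgroup.mem_center_iff.1 hx y).symm
  have hg2 : (g * (g * g)) * (g * (g * g)) = 1 := by
    rw [Commute.mul_mul_mul_comm (hz g), ← pow_two (g * g), ← pow_succ']
    exact h3
  have hbar : bar (g * (g * g)) = bar g := by
    show QuotientGroup.mk' (Subgroup.center S) (g * (g * g)) = _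
    rw [map_mul]
    conv_rhs => rw [← mul_one (bar g)]
    congr 1
    exact (QuotientGroup.eq_one_iff _).2 hx
  obtain ⟨L, hL, hmem, hpair⟩ := exists_list C _ hg2
  change ∃ y : X, E.π y = bar g ∧ y * y = 1
  rw [← hbar, hL]
  clear hL hbar
  have hmem' : ∀ v ∈ L, v.1 ≠ 0 := fun v hv => (hmem v hv).1
  clear hmem
  suffices h : ∃ y : X, E.π y = bar (L.map fun v => T C v.1 v.2).prod ∧ y * y = 1 ∧
      ∀ (u : V) (hu : H u u = 0), u ≠ 0 → (∀ v ∈ L, H u v.1 = 0) → ∀ a, E.π a = bar (T C u hu) →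
        Commute a y from ⟨h.choose, h.choose_spec.1, h.choose_spec.2.1⟩
  induction L with
  | nil => exact ⟨1, by simp [bar], mul_one 1, fun _ _ _ _ a _ => Commute.one_right a⟩
  | cons v L ih =>
    obtain ⟨hv, hrest⟩ := List.pairwise_cons.1 hpair
    obtain ⟨y, hy, hy2, hyc⟩ := ih hrest fun u hu => hmem' u (List.mem_cons_of_mem _ hu)
    obtain ⟨a, ha⟩ := E.surj (bar (T C v.1 v.2))
    have hv0 := hmem' v List.mem_cons_self
    have hay := hyc v.1 v.2 hv0 hv a ha
    refine ⟨a * y, ?_, ?_, fun u hu hu0 huL b hb => ?_⟩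
    · rw [map_mul, ha, hy, List.map_cons, List.prod_cons]
      simp [bar]
    · rw [Commute.mul_mul_mul_comm hay.symm, lift_sq E C v.2 hv0 ha, hy2, one_mul]
    · exact Commute.mul_right (commute_lifts E C hu v.2 (huL v List.mem_cons_self) hu0 hv0 hb ha)
        (hyc u hu hu0 (fun w hw => huL w (List.mem_cons_of_mem _ hw)) b hb)

end CfsgLib.USixCover
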