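import Cfsg.Agent.USixCover.Hyperovals
import Cfsg.Agent.UGeom.Count
import Cfsg.Agent.UGeom.Simple

/-!
A class of 3-transpositions in `PSU₆(2)` has 693 members.
-/

set_option autoImplicit false

namespace CfsgLib.USixCover

open Matrix CfsgLib.UGeom

variable {F : Type*} [Field F] [Fintype F]

local notation "H" => Cfsg.hermForm 6 F 2
local notation "V" => (Fin 6 → F)
local notation "S" => Cfsg.SU 6 F 2

theorem ncard_points (C : Conj F 2) {E : Set (S ⧸ Subgroup.center S)}
    (hE : Cfsg.IsThreeTranspositionGroup E) {p : S ⧸ Subgroup.center S} (hp : p ∈ E) : E.ncard = 693 := by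
  classical
  have hrep : ∀ q : E, ∃ v : {v : V // H v v = 0 ∧ v ≠ 0}, (q : S ⧸ Subgroup.center S) = bar (T C v.1 v.2.1) :=
    fun q => by
      obtain ⟨v, hv, hv0, e⟩ := isTv_of_mem C hE q.2
      exact ⟨⟨v, hv, hv0⟩, e⟩
  choose r hr using hrep
  let f : E × Fˣ → {v : V // H v v = 0 ∧ v ≠ 0} := fun x => ⟨(x.2 : F) • (r x.1).1,
    by rw [form_smul_left, form_smul_right C, (r x.1).2.1, mul_zero, mul_zero],
    smul_ne_zero x.2.ne_zero (r x.1).2.2⟩
  have hf : Function.Bijective f := by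
    constructor
    · rintro ⟨q, c⟩ ⟨q', c'⟩ h
      have h' : (c : F) • (r q).1 = (c' : F) • (r q').1 := congrArg Subtype.val h
      have hqq : q = q' := by
        apply Subtype.ext
        rw [hr q, hr q', ← T_smul C c.ne_zero (r q).1 (r q).2.1 (f (q, c)).2.1,
          ← T_smul C c'.ne_zero (r q').1 (r q').2.1 (f (q', c')).2.1]
        exact congrArg bar (T_congr C h' _ _)
      subst hqq
      exact Prod.ext rfl (Units.ext (smul_left_injective F (r q).2.2 h'))
    · rintro ⟨v, hv, hv0⟩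
      let q : E := ⟨bar (T C v hv), mem_of_isTv C hE hp ⟨v, hv, hv0, rfl⟩⟩
      obtain ⟨a, ha⟩ := eq_smul_of_bar_eq C (r q).2.1 hv (r q).2.2 hv0 (hr q).symm
      have ha0 : a ≠ 0 := fun e => hv0 (by rw [← ha, e, zero_smul])
      exact ⟨(q, Units.mk0 a ha0), Subtype.ext ha⟩
  have h := Nat.card_congr (Equiv.ofBijective f hf)
  rw [Nat.card_prod, Nat.card_units] at h
  have hFc : Nat.card F = 4 := by rw [Nat.card_eq_fintype_card, C.card]; norm_num
  rw [hFc, Nat.card_coe_set_eq] at h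
  have hiso : Nat.card {v : V // H v v = 0} = 2080 := by
    have := card_isotropic C 6
    rw [normCard, if_pos (by decide)] at this
    rw [this]; norm_num
  have hne : Nat.card {v : V // H v v = 0 ∧ v ≠ 0} + 1 = Nat.card {v : V // H v v = 0} := by
    rw [Nat.card_eq_fintype_card, Nat.card_eq_fintype_card, Fintype.card_subtype, Fintype.card_subtype,
      ← Finset.filter_filter, Finset.filter_ne', Finset.card_erase_add_one (by simp [form_zero_left])]
  omega

theorem ncard_class {Q : Type*} [Group Q] (C : Conj F 2) (φ : Q ≃* S ⧸ Subgroup.center S) {E : Set Q}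
    (hE : Cfsg.IsThreeTranspositionGroup E) (hne : E.Nonempty) : E.ncard = 693 := by
  have hE' : Cfsg.IsThreeTranspositionGroup (φ '' E) := by
    refine ⟨⟨?_, ?_⟩, ?_, ?_⟩
    · rintro _ ⟨x, hx, rfl⟩
      rw [MulEquiv.orderOf_eq]; exact hE.1.1 x hx
    · rintro _ ⟨x, hx, rfl⟩ _ ⟨y, hy, rfl⟩
      exact (hE.1.2 x hx y hy).imp (fun h => by rw [← map_mul, ← map_pow, h, map_one])
        (fun h => by rw [← map_mul, ← map_pow, h, map_one])
    · rintro g _ ⟨x, hx, rfl⟩
      obtain ⟨g, rfl⟩ := φ.surjective g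
      exact ⟨g * x * g⁻¹, hE.2.1 g x hx, by simp⟩
    · have h := congrArg (Subgroup.map φ.toMonoidHom) hE.2.2
      rw [MonoidHom.map_closure, Subgroup.map_top_of_surjective _ φ.surjective] at h
      exact h
  obtain ⟨x, hx⟩ := hne
  rw [← ncard_points C hE' ⟨x, hx, rfl⟩, Set.ncard_image_of_injective _ φ.injective]

/-- Two classes of 3-transpositions of a group isomorphic to `PSU₆(2)` coincide. -/
theorem class_eq {Q : Type*} [Group Q] (C : Conj F 2) (φ : Q ≃* S ⧸ Subgroup.center S) {E E' : Set Q}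
    (hE : Cfsg.IsThreeTranspositionGroup E) (hE' : Cfsg.IsThreeTranspositionGroup E') (hne : E.Nonempty) :
    E' ⊆ E := by
  have img : ∀ {A : Set Q}, Cfsg.IsThreeTranspositionGroup A → Cfsg.IsThreeTranspositionGroup (φ '' A) := by
    intro A hA
    refine ⟨⟨?_, ?_⟩, ?_, ?_⟩
    · rintro _ ⟨x, hx, rfl⟩
      rw [MulEquiv.orderOf_eq]; exact hA.1.1 x hx
    · rintro _ ⟨x, hx, rfl⟩ _ ⟨y, hy, rfl⟩
      exact (hA.1.2 x hx y hy).imp (fun h => by rw [← map_mul, ← map_pow, h, map_one])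
        (fun h => by rw [← map_mul, ← map_pow, h, map_one])
    · rintro g _ ⟨x, hx, rfl⟩
      obtain ⟨g, rfl⟩ := φ.surjective g
      exact ⟨g * x * g⁻¹, hA.2.1 g x hx, by simp⟩
    · have h := congrArg (Subgroup.map φ.toMonoidHom) hA.2.2
      rw [MonoidHom.map_closure, Subgroup.map_top_of_surjective _ φ.surjective] at h
      exact h
  obtain ⟨x, hx⟩ := hne
  intro y hy
  obtain ⟨z, hz, e⟩ := mem_of_isTv C (img hE) ⟨x, hx, rfl⟩ (isTv_of_mem C (img hE') ⟨y, hy, rfl⟩)
  exact φ.injective e ▸ hz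

end CfsgLib.USixCover
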