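import Cfsg.Prelude.Def_FischerSpaces
import Cfsg.Agent.USixCover.Lift

/-!
A class of 3-transpositions in `PSU₆(2)` is the class of transvections; five pairwise commuting
transvections with product one are the five points of a totally isotropic line.
-/

set_option autoImplicit false

namespace CfsgLib.USixCover

open Matrix CfsgLib.UGeom

variable {F : Type*} [Field F] [Fintype F]

local notation "H" => Cfsg.hermForm 6 F 2
local notation "V" => (Fin 6 → F)
local notation "S" => Cfsg.SU 6 F 2
local notation "mat" A:max => (((A : S) : Matrix.SpecialLinearGroup (Fin 6) F) : Matrix (Fin 6) (Fin 6) F)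

theorem vadd_self (C : Conj F 2) (x : V) : x + x = 0 := by
  rw [← two_smul F x, two_eq_zero C, zero_smul]

theorem mat_one (x : V) : mat (1 : S) *ᵥ x = x := Matrix.one_mulVec x

theorem bar_eq_scalar (C : Conj F 2) {A B : S} (h : bar A = bar B) :
    ∃ c : F, ∀ x : V, mat A *ᵥ x = c • (mat B *ᵥ x) := by
  have hz : A * B⁻¹ ∈ Subgroup.center S := by
    rw [← QuotientGroup.eq_one_iff]
    show bar (A * B⁻¹) = 1
    rw [bar, map_mul, map_inv]
    exact mul_inv_eq_one.2 h
  obtain ⟨c, hc⟩ := CfsgLib.Unitary.scalar_of_commute 2 C.card (by norm_num : 3 ≤ 6) (mat (A * B⁻¹))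
    fun g => congrArg (fun y : S => mat y) (Subgroup.mem_center_iff.1 hz g)
  refine ⟨c, fun x => ?_⟩
  conv_lhs => rw [show A = A * B⁻¹ * B by group]
  rw [SU_coe_mul, ← Matrix.mulVec_mulVec, hc, Matrix.smul_mulVec, Matrix.one_mulVec]

theorem eq_smul_of_bar_eq (C : Conj F 2) {v u : V} (hv : H v v = 0) (hu : H u u = 0) (hv0 : v ≠ 0)
    (hu0 : u ≠ 0) (h : bar (T C v hv) = bar (T C u hu)) : ∃ a : F, a • v = u := by
  by_contra h1
  push Not at h1
  have h2 : ∀ c : F, c • u ≠ v := fun c hc => by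
    have hc0 : c ≠ 0 := fun e => hv0 (by rw [← hc, e, zero_smul])
    exact h1 c⁻¹ (by rw [← hc, smul_smul, inv_mul_cancel₀ hc0, one_smul])
  obtain ⟨c, hc⟩ := bar_eq_scalar C h
  obtain ⟨z, hzv, hzu, hzz⟩ := exists_aniso_perp C hv0 hu0 h1 h2
  have h3 := hc z
  rw [T_apply, T_apply, hzv, hzu, zero_smul, zero_smul, add_zero] at h3
  have hc1 : c = 1 := by
    have h4 := congrArg (fun w => H w z) h3
    simp only [form_smul_left, hzz, mul_one] at h4
    exact h4.symm
  obtain ⟨x, hxv, hxu⟩ := exists_dual_pair C hv0 h1 0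
  have h5 := hc x
  rw [T_apply, T_apply, hxv, hxu, hc1, zero_smul, add_zero, one_smul, one_smul] at h5
  exact hv0 (add_left_cancel (h5.trans (add_zero x).symm))

theorem commute_T (C : Conj F 2) {v w : V} (hv : H v v = 0) (hw : H w w = 0) (h : H v w = 0) :
    Commute (bar (T C v hv)) (bar (T C w hw)) := by
  have hc := T_conj C (T C v hv) w hw
  rw [T_congr C (show mat (T C v hv) *ᵥ w = w by
    rw [T_apply, form_swap C h, zero_smul, add_zero]) _ hw] at hc
  exact (show Commute (T C v hv) (T C w hw) from mul_inv_eq_iff_eq_mul.1 hc).map (QuotientGroup.mk' (Subgroup.center S))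

theorem orth_of_commute (C : Conj F 2) {v w : V} (hv : H v v = 0) (hw : H w w = 0) (hv0 : v ≠ 0)
    (hw0 : w ≠ 0) (h : Commute (bar (T C v hv)) (bar (T C w hw))) : H v w = 0 := by
  by_contra hne
  have hk : H w v ≠ 0 := fun e => hne (form_swap C e)
  have h1 : bar (T C v hv * T C w hw * (T C v hv)⁻¹) = bar (T C w hw) := by
    rw [bar, map_mul, map_mul, map_inv]
    exact mul_inv_eq_iff_eq_mul.2 h.eq
  rw [T_conj] at h1
  obtain ⟨a, ha⟩ := eq_smul_of_bar_eq C _ hw (SU_mulVec_ne_zero _ hw0) hw0 h1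
  rw [T_apply, smul_add, smul_smul] at ha
  have h2 := congrArg (fun u => H u v) ha
  simp only [form_add_left, form_smul_left, hv, mul_zero, add_zero] at h2
  have ha1 : a = 1 := mul_right_cancel₀ hk (h2.trans (one_mul _).symm)
  rw [ha1, one_smul, one_mul] at ha
  have h3 : H w v • v = 0 := add_left_cancel (ha.trans (add_zero w).symm)
  exact hv0 ((smul_eq_zero.1 h3).resolve_left hk)

/-- The images of transvections. -/
def IsTv (C : Conj F 2) (p : S ⧸ Subgroup.center S) : Prop :=
  ∃ (v : V) (hv : H v v = 0), v ≠ 0 ∧ p = bar (T C v hv)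

theorem isConj_of_nonorth (C : Conj F 2) {v z : V} (hv : H v v = 0) (hz : H z z = 0) (h : H z v ≠ 0) :
    IsConj (bar (T C v hv)) (bar (T C z hz)) := by
  have hk : (H z v)⁻¹ ≠ 0 := inv_ne_zero h
  have hz' : H ((H z v)⁻¹ • z) ((H z v)⁻¹ • z) = 0 := by
    rw [form_smul_left, form_smul_right C, hz, mul_zero, mul_zero]
  have hb := congrArg bar (braid C hv hz' (by rw [form_smul_left, inv_mul_cancel₀ h]))
  rw [T_smul C hk z hz hz'] at hb
  simp only [bar, map_mul, map_inv] at hb
  refine isConj_iff.2 ⟨(bar (T C v hv))⁻¹ * bar (T C z hz), ?_⟩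
  simp only [bar] at hb ⊢
  generalize QuotientGroup.mk' (Subgroup.center S) (T C v hv) = x at hb ⊢
  generalize QuotientGroup.mk' (Subgroup.center S) (T C z hz) = y at hb ⊢
  calc x⁻¹ * y * x * (x⁻¹ * y)⁻¹ = x⁻¹ * (y * x * y⁻¹) * x := by group
    _ = y := by rw [hb]; group

theorem isConj_T (C : Conj F 2) {v u : V} (hv : H v v = 0) (hu : H u u = 0) (hv0 : v ≠ 0)
    (hu0 : u ≠ 0) : IsConj (bar (T C v hv)) (bar (T C u hu)) := by
  by_cases h : H u v = 0
  · by_cases hp : ∃ c : F, c • v = u
    · obtain ⟨c, rfl⟩ := hp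
      rw [T_smul C (fun e => hu0 (by rw [e, zero_smul])) v hv hu]
    · push Not at hp
      obtain ⟨z, hzz, hzv, hzu⟩ := exists_iso_partner C hv0 hv hp (form_swap C h) 1
      have h1 : IsConj (bar (T C v hv)) (bar (T C z hzz)) :=
        isConj_of_nonorth C hv hzz (by rw [hzv]; exact one_ne_zero)
      have h2 : IsConj (bar (T C u hu)) (bar (T C z hzz)) :=
        isConj_of_nonorth C hu hzz (by rw [hzu]; exact one_ne_zero)
      exact h1.trans h2.symm
  · exact isConj_of_nonorth C hv hu h

/-- A nontrivial involution moves some vector outside its perpendicular. -/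
theorem exists_split (C : Conj F 2) {g : S} (hg : g * g = 1) (hne : g ≠ 1) :
    ∃ (x v : V) (hv : H v v = 0), v = mat g *ᵥ x + x ∧ H x v = 1 ∧ mat g *ᵥ v = v ∧
      (g * T C v hv) * (g * T C v hv) = 1 := by
  have two := two_eq_zero C
  have hgg : ∀ x : V, mat g *ᵥ (mat g *ᵥ x) = x := fun x => by
    rw [Matrix.mulVec_mulVec, ← SU_coe_mul, hg]
    exact Matrix.one_mulVec x
  have hsym : ∀ x y : V, H (mat g *ᵥ x) y = H x (mat g *ᵥ y) := fun x y => by
    rw [← SU_form g x (mat g *ᵥ y), hgg]
  by_cases hall : ∀ x : V, H (mat g *ᵥ x + x) x = 0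
  · refine absurd (SU_ext fun x => ?_) hne
    rw [mat_one]
    obtain ⟨ω, hω⟩ := exists_omega C
    have h0 : mat g *ᵥ x + x = 0 := ext_form C fun y => by
      rw [form_zero_left]
      have mix : ∀ k : F, k * H (mat g *ᵥ x + x) y + C.σ k * H (mat g *ᵥ y + y) x = 0 := fun k => by
        have h := hall (k • x + y)
        have hx := hall x
        have hy := hall y
        simp only [Matrix.mulVec_add, Matrix.mulVec_smul, form_add_left, form_add_right C,
          form_smul_left, form_smul_right C] at h hx hy ⊢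
        linear_combination h - (k * C.σ k) * hx - hy
      have e1 := mix 1
      have e2 := mix ω
      rw [map_one, one_mul, one_mul] at e1
      rw [C.pow] at e2
      linear_combination -(ω ^ 2) * e1 + e2 + (H (mat g *ᵥ x + x) y) * hω - (H (mat g *ᵥ x + x) y) * ω * two
    have := congrArg (fun u => u + x) h0
    simpa [add_assoc, vadd_self C] using this
  · push Not at hall
    obtain ⟨x, hx⟩ := hall
    set v := mat g *ᵥ x + x with hvdef
    have hgv : mat g *ᵥ v = v := by rw [hvdef, Matrix.mulVec_add, hgg, add_comm]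
    have hv : H v v = 0 := by
      conv_lhs => arg 5; rw [hvdef]
      rw [form_add_right C, ← hsym, hgv]
      linear_combination (H v x) * two
    have hvx : H v x = 1 := by
      refine eq_one_of_fixed C ?_ hx
      rw [hvdef, form_add_left, map_add, form_conj C, form_conj C, ← hsym]
    have hxv : H x v = 1 := by rw [← form_conj C v x, hvx, map_one]
    have hcomm : Commute g (T C v hv) := by
      have := T_conj C g v hv
      rw [T_congr C hgv _ hv] at this
      exact mul_inv_eq_iff_eq_mul.1 this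
    exact ⟨x, v, hv, rfl, hxv, hgv, by rw [hcomm.symm.mul_mul_mul_comm, hg, T_mul_self, one_mul]⟩

/-- An involution other than a transvection moves two orthogonal isotropic vectors along a path. -/
theorem exists_path (C : Conj F 2) {g : S} (hg : g * g = 1) (hne : g ≠ 1)
    (hnT : ∀ (v : V) (hv : H v v = 0), v ≠ 0 → g ≠ T C v hv) :
    ∃ y z : V, H y y = 0 ∧ H z z = 0 ∧ H y z = 0 ∧ H (mat g *ᵥ z) z = 0 ∧ H (mat g *ᵥ y) y = 1 ∧
      H (mat g *ᵥ z) y = 1 := by
  have two := two_eq_zero C
  obtain ⟨x, v, hv, hvdef, hxv, hgv, hg'⟩ := exists_split C hg hne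
  have hv0 : v ≠ 0 := fun e => by rw [e, form_zero_right C] at hxv; exact zero_ne_one hxv
  have hne' : g * T C v hv ≠ 1 := fun e => hnT v hv hv0 (by
    calc g = g * T C v hv * T C v hv := by rw [mul_assoc, T_mul_self, mul_one]
      _ = T C v hv := by rw [e, one_mul])
  obtain ⟨x₂, w, hw, hwdef, hx₂w, hgw', -⟩ := exists_split C hg' hne'
  have happ : ∀ y : V, mat (g * T C v hv) *ᵥ y = mat g *ᵥ y + H y v • v := fun y => by
    rw [SU_coe_mul, ← Matrix.mulVec_mulVec, T_apply, Matrix.mulVec_add, Matrix.mulVec_smul, hgv]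
  have hgx : mat g *ᵥ x = x + v := by
    rw [hvdef, add_left_comm, vadd_self C, add_zero]
  have hx' : mat (g * T C v hv) *ᵥ x = x := by
    rw [happ, hxv, one_smul, hgx, add_assoc, vadd_self C, add_zero]
  have hv' : mat (g * T C v hv) *ᵥ v = v := by rw [happ, hgv, hv, zero_smul, add_zero]
  have hxw : H x w = 0 := by
    have h := SU_form (g * T C v hv) x x₂
    rw [hx'] at h
    rw [hwdef, form_add_right C, h, ← two_mul, two, zero_mul]
  have hvw : H v w = 0 := by
    have h := SU_form (g * T C v hv) v x₂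
    rw [hv'] at h
    rw [hwdef, form_add_right C, h, ← two_mul, two, zero_mul]
  have hwv : H w v = 0 := form_swap C hvw
  have hwx : H w x = 0 := form_swap C hxw
  have hvx : H v x = 1 := by rw [← form_conj C x v, hxv, map_one]
  have hgw : mat g *ᵥ w = w := by
    have h := hgw'
    rw [happ, hwv, zero_smul, add_zero] at h
    exact h
  obtain ⟨k, hk⟩ : ∃ k, k = H x₂ v := ⟨_, rfl⟩
  have hgx₂ : mat g *ᵥ x₂ = x₂ + w + k • v := by
    have h := happ x₂
    rw [← hk] at h
    rw [hwdef, h]
    rw [show x₂ + (mat g *ᵥ x₂ + k • v + x₂) + k • v = mat g *ᵥ x₂ + (x₂ + x₂) + (k • v + k • v) by abel,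
      vadd_self C, vadd_self C, add_zero, add_zero]
  set x₂' := x₂ + k • x with hx₂'
  have hgx₂' : mat g *ᵥ x₂' = x₂' + w := by
    rw [hx₂', Matrix.mulVec_add, Matrix.mulVec_smul, hgx₂, hgx, smul_add,
      show x₂ + w + k • v + (k • x + k • v) = x₂ + k • x + w + (k • v + k • v) by abel, vadd_self C, add_zero]
  have hx₂'v : H x₂' v = 0 := by
    rw [hx₂', form_add_left, form_smul_left, hxv, ← hk, mul_one, ← two_mul, two, zero_mul]
  have hx₂'w : H x₂' w = 1 := by
    rw [hx₂', form_add_left, form_smul_left, hxw, hx₂w, mul_zero, add_zero]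
  have hwx₂' : H w x₂' = 1 := by rw [← form_conj C x₂' w, hx₂'w, map_one]
  have hvx₂' : H v x₂' = 0 := form_swap C hx₂'v
  obtain ⟨t₀, ht₀⟩ := exists_trace_one C
  set t := t₀ * H x x with ht
  set s := t₀ * H x₂' x₂' with hs
  have htr : ∀ a : V, t₀ * H a a + C.σ (t₀ * H a a) = H a a := fun a => by
    rw [map_mul, form_conj C]; linear_combination (H a a) * ht₀
  set X := x + t • v with hX
  have hXX : H X X = 0 := by
    rw [hX]
    simp only [form_add_left, form_add_right C, form_smul_left, form_smul_right C, hv, hxv, hvx]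
    have h := htr x
    rw [← ht] at h
    linear_combination h + (H x x) * two
  set m := C.σ (H X x₂') with hm
  set Y := x₂' + s • w + m • v with hY
  have hXv : H X v = 1 := by rw [hX, form_add_left, form_smul_left, hv, hxv, mul_zero, add_zero]
  have hXw : H X w = 0 := by rw [hX, form_add_left, form_smul_left, hvw, hxw, mul_zero, add_zero]
  have hXY : H X Y = 0 := by
    rw [hY, form_add_right C, form_add_right C, form_smul_right C, form_smul_right C, hXv, hXw, hm, C.invol]
    linear_combination (H X x₂') * two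
  have hYY : H Y Y = 0 := by
    rw [hY]
    simp only [form_add_left, form_add_right C, form_smul_left, form_smul_right C, hv, hw, hvw, hwv,
      hx₂'v, hvx₂', hx₂'w, hwx₂']
    have h := htr x₂'
    rw [← hs] at h
    linear_combination h + (H x₂' x₂') * two
  have hgX : mat g *ᵥ X = X + v := by
    rw [hX, Matrix.mulVec_add, Matrix.mulVec_smul, hgv, hgx]; abel
  have hgY : mat g *ᵥ Y = Y + w := by
    rw [hY, Matrix.mulVec_add, Matrix.mulVec_add, Matrix.mulVec_smul, Matrix.mulVec_smul, hgv, hgw, hgx₂']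
    abel
  have hYX := form_swap C hXY
  have hYv : H Y v = 0 := by
    rw [hY]; simp [form_add_left, form_smul_left, hv, hwv, hx₂'v]
  have hYw : H Y w = 1 := by
    rw [hY]; simp [form_add_left, form_smul_left, hw, hvw, hx₂'w]
  have hvY : H v Y = 0 := form_swap C hYv
  have hwY : H w Y = 1 := by rw [← form_conj C Y w, hYw, map_one]
  have hwX : H w X = 0 := form_swap C hXw
  have hvX : H v X = 1 := by rw [← form_conj C X v, hXv, map_one]
  refine ⟨Y, X + Y, hYY, ?_, ?_, ?_, ?_, ?_⟩
  · simp [form_add_left, form_add_right C, hXX, hYY, hXY, hYX]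
  · simp [form_add_right C, hYX, hYY]
  · rw [Matrix.mulVec_add, hgX, hgY]
    simp only [form_add_left, form_add_right C, hXX, hYY, hXY, hYX, hvX, hvY, hwX, hwY]
    linear_combination two
  · rw [hgY]; simp [form_add_left, hYY, hwY]
  · rw [Matrix.mulVec_add, hgX, hgY]
    simp [form_add_left, hXY, hvY, hYY, hwY]

/-- The members of a class of 3-transpositions of `PSU₆(2)` are transvections. -/
theorem isTv_of_mem (C : Conj F 2) {E : Set (S ⧸ Subgroup.center S)}
    (hE : Cfsg.IsThreeTranspositionGroup E) {p : S ⧸ Subgroup.center S} (hp : p ∈ E) : IsTv C p := by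
  have hord := hE.1.1 p hp
  have hpp : p * p = 1 := by
    have := pow_orderOf_eq_one p
    rwa [hord, pow_two] at this
  obtain ⟨g, hgp, hgg⟩ : ∃ g : S, bar g = p ∧ g * g = 1 := by
    obtain ⟨g, rfl⟩ := QuotientGroup.mk'_surjective (Subgroup.center S) p
    rw [← map_mul, QuotientGroup.mk'_apply, QuotientGroup.eq_one_iff] at hpp
    have h3 : (g * g) ^ 3 = 1 := by
      have := pow_card_eq_one' (x := (⟨g * g, hpp⟩ : Subgroup.center S))
      rw [card_center_SU C (by norm_num)] at this
      simpa using congrArg Subtype.val this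
    have hz : ∀ y : S, Commute (g * g) y := fun y => (Subgroup.mem_center_iff.1 hpp y).symm
    refine ⟨g * (g * g), ?_, ?_⟩
    · rw [bar, map_mul, show QuotientGroup.mk' (Subgroup.center S) (g * g) = 1 from
        (QuotientGroup.eq_one_iff _).2 hpp, mul_one]
    · rw [Commute.mul_mul_mul_comm (hz g), ← pow_two (g * g), ← pow_succ']
      exact h3
  by_contra hnT
  obtain ⟨y, z, hy, hz, hyz, hzz', hyy', hzy'⟩ := exists_path C hgg
    (fun e => by rw [← hgp, e, bar, map_one, orderOf_one] at hord; omega)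
    (fun v hv hv0 e => hnT ⟨v, hv, hv0, by rw [← hgp, e]⟩)
  have hb : H (mat g *ᵥ y) (mat g *ᵥ y) = 0 := by rw [SU_form, hy]
  have hd : H (mat g *ᵥ z) (mat g *ᵥ z) = 0 := by rw [SU_form, hz]
  set M : S := T C _ hb * T C _ hd * (T C z hz * T C y hy) with hM
  have hM' : p * (bar (T C y hy * T C z hz) * p * (bar (T C y hy * T C z hz))⁻¹) = bar M := by
    have e : ∀ (u : V) (hu : H u u = 0), (T C u hu)⁻¹ = T C u hu := fun u hu =>
      inv_eq_of_mul_eq_one_right (T_mul_self C u hu)
    have hginv : g⁻¹ = g := inv_eq_of_mul_eq_one_right hgg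
    rw [← hgp, hM, ← T_conj C g y hy, ← T_conj C g z hz, hginv]
    simp only [bar, ← map_mul, ← map_inv]
    refine congrArg _ ?_
    rw [_root_.mul_inv_rev, e, e]
    simp only [mul_assoc]
    rw [← mul_assoc g g (T C z hz * _), hgg, one_mul]
  have hdich := hE.1.2 p hp _ (hE.2.1 (bar (T C y hy * T C z hz)) p hp)
  rw [hM'] at hdich
  set b := mat g *ᵥ y with hbdef
  set d := mat g *ᵥ z with hddef
  have hbd : H b d = 0 := by rw [SU_form, hyz]
  have hdb := form_swap C hbd
  have hzy := form_swap C hyz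
  have hzd := form_swap C hzz'
  have hyb : H y b = 1 := by rw [← form_conj C b y, hyy', map_one]
  have hyd : H y d = 1 := by rw [← form_conj C d y, hzy', map_one]
  have hbz : H b z = 1 := by
    have hgg' : mat g *ᵥ (mat g *ᵥ z) = z := by
      rw [Matrix.mulVec_mulVec, ← SU_coe_mul, hgg, mat_one]
    rw [hbdef, ← hgg', SU_form, ← hddef, hyd]
  have hzb : H z b = 1 := by rw [← form_conj C b z, hbz, map_one]
  have two := two_eq_zero C
  have hA : ∀ x : V, mat M *ᵥ x =
      mat (T C b hb) *ᵥ (mat (T C d hd) *ᵥ (mat (T C z hz) *ᵥ (mat (T C y hy) *ᵥ x))) := fun x => by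
    rw [hM]; simp only [SU_coe_mul, ← Matrix.mulVec_mulVec]; rfl
  have s1 : mat M *ᵥ z = z + b := by
    rw [hA]
    simp [T_apply, hzy, hz, hzd, hzb]
  have s2 : mat M *ᵥ b = z + b + y + d := by
    rw [hA]
    simp [T_apply, form_add_left, form_smul_left, hb, hbd, hbz, hyy', hy, hyz, hzy, hyd, hyb, hz, hzd,
      hzb, hd, hdb, one_add_one_eq_two, two, add_comm, add_left_comm]
  have s3 : mat M *ᵥ y = b + y + d := by
    rw [hA]
    simp [T_apply, form_add_left, form_smul_left, hy, hyz, hyd, hyb, hd, hdb, add_comm, add_left_comm]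
  have s4 : mat M *ᵥ d = b + y := by
    rw [hA]
    simp only [T_apply, form_add_left, form_smul_left, hd, hdb, hzy', hzz', hy, hyz, hyd, hyb, one_smul,
      zero_smul, mul_zero, mul_one, add_zero, zero_add]
    rw [show d + y + d = y + (d + d) by abel, vadd_self C, add_zero, add_comm]
  have t2 : mat M *ᵥ (mat M *ᵥ z) = y + d := by
    rw [s1, Matrix.mulVec_add, s1, s2, show z + b + (z + b + y + d) = (z + z) + (b + b) + (y + d) by abel,
      vadd_self C, vadd_self C, zero_add, zero_add]
  have t3 : mat M *ᵥ (mat M *ᵥ (mat M *ᵥ z)) = d := by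
    rw [t2, Matrix.mulVec_add, s3, s4, show b + y + d + (b + y) = (b + b) + (y + y) + d by abel,
      vadd_self C, vadd_self C, zero_add, zero_add]
  rcases hdich with h | h
  · obtain ⟨c, hc⟩ := bar_eq_scalar C (show bar (M ^ 2) = bar 1 by simpa [bar] using h)
    have h1 := hc z
    rw [pow_two, SU_coe_mul, ← Matrix.mulVec_mulVec, t2, mat_one] at h1
    have h2 := congrArg (fun u => H u d) h1
    simp [form_add_left, form_smul_left, hyd, hd, hzd] at h2
  · obtain ⟨c, hc⟩ := bar_eq_scalar C (show bar (M ^ 3) = bar 1 by simpa [bar] using h)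
    have h1 := hc z
    rw [pow_succ, pow_two, SU_coe_mul, SU_coe_mul, ← Matrix.mulVec_mulVec, ← Matrix.mulVec_mulVec, t3,
      mat_one] at h1
    have h2 := congrArg (fun u => H u y) h1
    simp [form_smul_left, hzy', hzy] at h2

theorem mem_of_isTv (C : Conj F 2) {E : Set (S ⧸ Subgroup.center S)}
    (hE : Cfsg.IsThreeTranspositionGroup E) {p q : S ⧸ Subgroup.center S} (hp : p ∈ E) (hq : IsTv C q) :
    q ∈ E := by
  obtain ⟨v, hv, hv0, rfl⟩ := isTv_of_mem C hE hp
  obtain ⟨u, hu, hu0, rfl⟩ := hq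
  obtain ⟨g, hg⟩ := isConj_iff.1 (isConj_T C hv hu hv0 hu0)
  exact hg ▸ hE.2.1 g _ hp

/-! ### Lines -/

theorem sum_eq_zero_of_bar (C : Conj F 2) {a b e f g : V} (ha : H a a = 0) (hb : H b b = 0)
    (he : H e e = 0) (hf : H f f = 0) (hg : H g g = 0) (ha0 : a ≠ 0)
    (hab : H a b = 0) (hae : H a e = 0) (haf : H a f = 0) (hag : H a g = 0) (hbe : H b e = 0)
    (hbf : H b f = 0) (hbg : H b g = 0) (hef : H e f = 0) (heg : H e g = 0) (hfg : H f g = 0)
    (h : bar (T C a ha) * (bar (T C b hb) * (bar (T C e he) * (bar (T C f hf) * bar (T C g hg)))) = 1)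
    (x : V) : H x a • a + H x b • b + H x e • e + H x f • f + H x g • g = 0 := by
  simp only [bar, ← map_mul] at h
  obtain ⟨c, hc⟩ := bar_eq_scalar C (h.trans (map_one (QuotientGroup.mk' (Subgroup.center S))).symm)
  have hba := form_swap C hab
  have hea := form_swap C hae
  have hfa := form_swap C haf
  have hga := form_swap C hag
  have heb := form_swap C hbe
  have hfb := form_swap C hbf
  have hgb := form_swap C hbg
  have hfe := form_swap C hef
  have hge := form_swap C heg
  have hgf := form_swap C hfg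
  have key : ∀ y : V, y + (H y a • a + H y b • b + H y e • e + H y f • f + H y g • g) = c • y := fun y => by
    have h1 := hc y
    simp only [SU_coe_mul, ← Matrix.mulVec_mulVec, T_apply, mat_one, form_add_left, form_smul_left,
      hba, hea, hfa, hga, heb, hfb, hgb, hfe, hge, hgf, mul_zero, add_zero] at h1
    rw [← h1]; abel
  have h0 := key a
  simp only [ha, hab, hae, haf, hag, zero_smul, add_zero] at h0
  have hc1 : c = 1 := by
    by_contra hne
    refine ha0 ((smul_eq_zero.1 (show (c - 1) • a = 0 by rw [sub_smul, one_smul, ← h0, sub_self])).resolve_left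
      (sub_ne_zero.2 hne))
  have h1 := key x
  rw [hc1, one_smul] at h1
  exact add_left_cancel (h1.trans (add_zero x).symm)

/-- Five points with vanishing sum of their rank-one forms lie on a line. -/
theorem mem_span_of_sum (C : Conj F 2) {a b e f g : V} (ha0 : a ≠ 0) (hb0 : b ≠ 0)
    (hab : ∀ k : F, k • a ≠ b)
    (h : ∀ x : V, H x a • a + H x b • b + H x e • e + H x f • f + H x g • g = 0) :
    ∃ s t : F, e = s • a + t • b := by
  have two := two_eq_zero C
  have hba : ∀ k : F, k • b ≠ a := fun k hk => by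
    have hk0 : k ≠ 0 := fun e' => ha0 (by rw [← hk, e', zero_smul])
    exact hab k⁻¹ (by rw [← hk, smul_smul, inv_mul_cancel₀ hk0, one_smul])
  obtain ⟨p, hpa, hpb⟩ := exists_dual_pair C ha0 hab 0
  obtain ⟨q, hqb, hqa⟩ := exists_dual_pair C hb0 hba 0
  by_contra hno
  have hex : ∃ r, H r a = 0 ∧ H r b = 0 ∧ H r e = 1 := by
    by_contra hr
    refine hno ⟨C.σ (H p e), C.σ (H q e), ext_form C fun y => ?_⟩
    have h0 : H (y - H y a • p - H y b • q) e = 0 := by
      by_contra h1
      refine hr ⟨(H (y - H y a • p - H y b • q) e)⁻¹ • (y - H y a • p - H y b • q), ?_, ?_, ?_⟩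
      · simp [form_smul_left, form_sub_left, hpa, hqa]
      · simp [form_smul_left, form_sub_left, hpb, hqb]
      · rw [form_smul_left, inv_mul_cancel₀ h1]
    rw [form_sub_left, form_sub_left, form_smul_left, form_smul_left] at h0
    have h1 := congrArg C.σ (show H y e = H y a * H p e + H y b * H q e by linear_combination h0)
    rw [form_conj C, map_add, map_mul, map_mul, form_conj C y a, form_conj C y b] at h1
    rw [h1, form_add_left, form_smul_left, form_smul_left]
    ring
  obtain ⟨r, hra, hrb, hre⟩ := hex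
  set p' := p - H p e • r with hp'
  set q' := q - H q e • r with hq'
  have p1 : H p' a = 1 := by rw [hp', form_sub_left, form_smul_left, hra, hpa, mul_zero, sub_zero]
  have p2 : H p' b = 0 := by rw [hp', form_sub_left, form_smul_left, hrb, hpb, mul_zero, sub_zero]
  have p3 : H p' e = 0 := by rw [hp', form_sub_left, form_smul_left, hre, mul_one, sub_self]
  have q1 : H q' a = 0 := by rw [hq', form_sub_left, form_smul_left, hra, hqa, mul_zero, sub_zero]
  have q2 : H q' b = 1 := by rw [hq', form_sub_left, form_smul_left, hrb, hqb, mul_zero, sub_zero]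
  have q3 : H q' e = 0 := by rw [hq', form_sub_left, form_smul_left, hre, mul_one, sub_self]
  have orth : ∀ x y : V, H x a * C.σ (H y a) + H x b * C.σ (H y b) + H x e * C.σ (H y e) +
      H x f * C.σ (H y f) + H x g * C.σ (H y g) = 0 := fun x y => by
    have h1 := congrArg (fun u => H u y) (h x)
    simp only [form_add_left, form_smul_left, form_zero_left] at h1
    rw [form_conj C, form_conj C, form_conj C, form_conj C, form_conj C]
    exact h1
  have epp := orth p' p'
  have epq := orth p' q'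
  have epr := orth p' r
  have eqp := orth q' p'
  have eqq := orth q' q'
  have eqr := orth q' r
  have erp := orth r p'
  have erq := orth r q'
  have err := orth r r
  simp only [p1, p2, p3, q1, q2, q3, hra, hrb, hre, map_one, map_zero, mul_zero, zero_mul, one_mul,
    add_zero, zero_add] at epp epq epr eqp eqq eqr erp erq err
  set a0 := H p' f; set b0 := H p' g; set a1 := H q' f; set b1 := H q' g; set a2 := H r f; set b2 := H r g
  have hc2 : a0 * b1 - a1 * b0 = 0 := by
    linear_combination (a1 * b2 - a2 * b1) * epr + (a2 * b0 - a0 * b2) * eqr + (a0 * b1 - a1 * b0) * err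
  have hone : (1 : F) = 0 := by
    linear_combination (1 : F) * (C.σ a0 * C.σ b1 - C.σ a1 * C.σ b0) * hc2
      + (1 : F) * epp - (a0 * C.σ a0 + b0 * C.σ b0) * eqq + (a0 * C.σ a1 + b0 * C.σ b1) * eqp
  exact one_ne_zero hone

theorem field_cases (C : Conj F 2) {ω : F} (hω : ω ^ 2 + ω + 1 = 0) (k : F) :
    k = 0 ∨ k = 1 ∨ k = ω ∨ k = ω ^ 2 := by
  have h4 : k ^ 4 = k := by
    have := FiniteField.pow_card k
    rwa [C.card] at this
  have e : k * (k - 1) * ((k - ω) * (k - ω ^ 2)) = 0 := by
    linear_combination h4 + k * (k - 1) * (-k + ω - 1) * hω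
  rcases mul_eq_zero.1 e with e | e <;> rcases mul_eq_zero.1 e with e | e
  · exact Or.inl e
  · exact Or.inr (Or.inl (sub_eq_zero.1 e))
  · exact Or.inr (Or.inr (Or.inl (sub_eq_zero.1 e)))
  · exact Or.inr (Or.inr (Or.inr (sub_eq_zero.1 e)))

/-- The points on the line through two orthogonal transvections, abstractly. -/
theorem exists_line {Q : Type*} [Group Q] (C : Conj F 2) (φ : Q ≃* S ⧸ Subgroup.center S) {E : Set Q}
    (hE : Cfsg.IsThreeTranspositionGroup E) {p q : Q} (hp : p ∈ E) (hq : q ∈ E) (hne : p ≠ q)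
    (hpq : Commute p q) :
    ∃ r s t, r ∈ E ∧ s ∈ E ∧ t ∈ E ∧ [p, q, r, s, t].Nodup ∧
      (∀ x ∈ [p, q, r, s, t], ∀ y ∈ [p, q, r, s, t], Commute x y) ∧
      p * (q * (r * (s * t))) = 1 ∧
      (∀ y ∈ E, Commute y p → Commute y q → Commute y r ∧ Commute y s ∧ Commute y t) ∧
      (∀ u ∈ E, u ≠ p → u ≠ q → Commute u p → Commute u q →
        (∀ y ∈ E, Commute y p → Commute y q → Commute y u) → u = r ∨ u = s ∨ u = t) ∧
      ∀ x ∈ E, ∀ y ∈ E, ∀ z ∈ E, [p, q, x, y, z].Nodup →
        (∀ u ∈ [p, q, x, y, z], ∀ w ∈ [p, q, x, y, z], Commute u w) → p * (q * (x * (y * z))) = 1 →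
        (x = r ∨ x = s ∨ x = t) ∧ (y = r ∨ y = s ∨ y = t) ∧ (z = r ∨ z = s ∨ z = t) := by
  have hcm : ∀ x y : Q, Commute (φ x) (φ y) ↔ Commute x y := fun x y =>
    ⟨fun h => φ.injective (by rw [map_mul, map_mul, h.eq]), fun h => h.map φ.toMonoidHom⟩
  have hE' : Cfsg.IsThreeTranspositionGroup (φ '' E) := by
    refine ⟨⟨?_, ?_⟩, ?_, ?_⟩
    · rintro _ ⟨x, hx, rfl⟩
      rw [MulEquiv.orderOf_eq]; exact hE.1.1 x hx
    · rintro _ ⟨x, hx, rfl⟩ _ ⟨y, hy, rfl⟩
      exact (hE.1.2 x hx y hy).imp (fun h => by rw [← map_mul, ← map_pow, h, map_one])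
        (fun h => by rw [← map_mul, ← map_pow, h, map_one])
    · rintro g _ ⟨x, hx, rfl⟩
      obtain ⟨g, rfl⟩ := φ.surjective g
      exact ⟨g * x * g⁻¹, hE.2.1 g x hx, by simp⟩
    · have h := congrArg (Subgroup.map φ.toMonoidHom) hE.2.2
      rw [MonoidHom.map_closure, Subgroup.map_top_of_surjective _ φ.surjective] at h
      exact h
  have hmem : ∀ (u : V) (hu : H u u = 0), u ≠ 0 → φ.symm (bar (T C u hu)) ∈ E := fun u hu hu0 => by
    obtain ⟨x, hx, hxe⟩ := mem_of_isTv C hE' ⟨p, hp, rfl⟩ ⟨u, hu, hu0, rfl⟩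
    rw [← hxe, MulEquiv.symm_apply_apply]; exact hx
  obtain ⟨v, hv, hv0, ev⟩ := isTv_of_mem C hE' ⟨p, hp, rfl⟩
  obtain ⟨w, hw, hw0, ew⟩ := isTv_of_mem C hE' ⟨q, hq, rfl⟩
  have hvw : H v w = 0 := orth_of_commute C hv hw hv0 hw0 (by rw [← ev, ← ew]; exact (hcm p q).2 hpq)
  have hwv := form_swap C hvw
  have hind : ∀ k : F, k • v ≠ w := fun k hk => hne (φ.injective (by
    rw [ev, ew]; subst hk
    rw [T_smul C (fun e => hw0 (by rw [e, zero_smul])) v hv hw]))
  obtain ⟨ω, hω⟩ := exists_omega C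
  have hω0 : ω ≠ 0 := fun h => by rw [h] at hω; simp at hω
  have hω1 : ω ≠ 1 := fun h => by
    rw [h] at hω
    exact one_ne_zero (α := F) (by linear_combination hω - two_eq_zero C)
  have iso : ∀ k : F, H (v + k • w) (v + k • w) = 0 := fun k => by
    simp [form_add_left, form_add_right C, form_smul_left, form_smul_right C, hv, hw, hvw, hwv]
  have ne0 : ∀ k : F, v + k • w ≠ 0 := fun k h => by
    rcases eq_or_ne k 0 with rfl | hk
    · exact hv0 (by simpa using h)
    · exact hind (-k⁻¹) (by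
        rw [eq_neg_of_add_eq_zero_left h, smul_neg, neg_smul, neg_neg, smul_smul, inv_mul_cancel₀ hk, one_smul])
  let pt : F → Q := fun k => φ.symm (bar (T C _ (iso k)))
  have hpt : ∀ k, φ (pt k) = bar (T C _ (iso k)) := fun k => φ.apply_symm_apply _
  have hp0 : pt 0 = p := φ.injective (by
    rw [hpt, ev, T_congr C (show v + (0 : F) • w = v by simp) _ hv])
  have hinj : ∀ k k' : F, pt k = pt k' → k = k' := fun k k' h => by
    have h1 := congrArg φ h
    rw [hpt, hpt] at h1
    obtain ⟨a, ha⟩ := eq_smul_of_bar_eq C _ _ (ne0 k) (ne0 k') h1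
    have e1 : (a - 1) • v = (k' - a * k) • w := by
      rw [smul_add, smul_smul] at ha
      rw [sub_smul, sub_smul, one_smul, sub_eq_sub_iff_add_eq_add, ha, add_comm]
    by_cases hk : k' - a * k = 0
    · rw [hk, zero_smul, smul_eq_zero, sub_eq_zero] at e1
      rw [e1.resolve_right hv0, one_mul, sub_eq_zero] at hk
      exact hk.symm
    · exact absurd (by rw [← smul_smul, e1, smul_smul, inv_mul_cancel₀ hk, one_smul] :
        ((k' - a * k)⁻¹ * (a - 1)) • v = w) (hind _)
  have hq' : ∀ k, pt k ≠ q := fun k h => by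
    have h1 := congrArg φ h
    rw [hpt, ew] at h1
    obtain ⟨a, ha⟩ := eq_smul_of_bar_eq C _ _ (ne0 k) hw0 h1
    have ha0 : a ≠ 0 := fun e => hw0 (by rw [← ha, e, zero_smul])
    rw [smul_add, smul_smul] at ha
    by_cases hk : 1 - a * k = 0
    · have e1 : a • v = 0 := by
        have : a • v = (1 - a * k) • w := by rw [sub_smul, one_smul, eq_sub_iff_add_eq, ha]
        rwa [hk, zero_smul] at this
      exact hv0 ((smul_eq_zero.1 e1).resolve_left ha0)
    · exact hind ((1 - a * k)⁻¹ * a) (by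
        rw [← smul_smul, show a • v = (1 - a * k) • w by rw [sub_smul, one_smul, eq_sub_iff_add_eq, ha],
          smul_smul, inv_mul_cancel₀ hk, one_smul])
  have hspan : ∀ (x : Q) (u : V) (hu : H u u = 0), φ x = bar (T C u hu) → u ≠ 0 → x ≠ p → x ≠ q →
      ∀ s t : F, u = s • v + t • w → x = pt 1 ∨ x = pt ω ∨ x = pt (ω ^ 2) := by
    intro x u hu hx hu0 hxp hxq s t hst
    rcases eq_or_ne s 0 with rfl | hs
    · rw [zero_smul, zero_add] at hst
      subst hst
      exact absurd (φ.injective (by rw [hx, ew, T_smul C (fun e => hu0 (by rw [e, zero_smul])) w hw hu])) hxq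
    have hu' : u = s • (v + (s⁻¹ * t) • w) := by
      rw [smul_add, smul_smul, ← mul_assoc, mul_inv_cancel₀ hs, one_mul, hst]
    have hx' : x = pt (s⁻¹ * t) := φ.injective (by
      subst hu'
      rw [hx, hpt, T_smul C hs _ (iso _) hu])
    rcases field_cases C hω (s⁻¹ * t) with e | e | e | e <;> rw [e] at hx'
    · exact absurd (hx'.trans hp0) hxp
    · exact Or.inl hx'
    · exact Or.inr (Or.inl hx')
    · exact Or.inr (Or.inr hx')
  have hptE : ∀ k, pt k ∈ E := fun k => hmem _ (iso k) (ne0 k)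
  have corth : ∀ k k', Commute (pt k) (pt k') := fun k k' => (hcm _ _).1 (by
    rw [hpt, hpt]
    exact commute_T C _ _ (by
      simp [form_add_left, form_add_right C, form_smul_left, form_smul_right C, hv, hw, hvw, hwv]))
  have cq : ∀ k, Commute q (pt k) := fun k => (hcm _ _).1 (by
    rw [hpt, ew]
    exact commute_T C _ _ (by simp [form_add_right C, form_smul_right C, hw, hwv]))
  have hperp : ∀ y ∈ E, Commute y p → Commute y q → ∀ k, Commute y (pt k) := fun y hy hyp hyq k => by
    obtain ⟨u, hu, hu0, eu⟩ := isTv_of_mem C hE' ⟨y, hy, rfl⟩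
    have h1 := orth_of_commute C hu hv hu0 hv0 (by rw [← ev, ← eu]; exact (hcm _ _).2 hyp)
    have h2 := orth_of_commute C hu hw hu0 hw0 (by rw [← ew, ← eu]; exact (hcm _ _).2 hyq)
    refine (hcm _ _).1 ?_
    rw [hpt, eu]
    exact commute_T C _ _ (by simp [form_add_right C, form_smul_right C, h1, h2])
  refine ⟨pt 1, pt ω, pt (ω ^ 2), hptE _, hptE _, hptE _, ?_, ?_, ?_, fun y hy h1 h2 =>
    ⟨hperp y hy h1 h2 1, hperp y hy h1 h2 ω, hperp y hy h1 h2 _⟩, ?_, ?_⟩
  · have hω2 : ω ^ 2 ≠ 1 ∧ ω ^ 2 ≠ ω := ⟨fun h => by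
        rw [h] at hω
        exact hω0 (by linear_combination hω - two_eq_zero C), fun h => by
        rw [h] at hω
        exact one_ne_zero (α := F) (by linear_combination hω - ω * two_eq_zero C)⟩
    have hne0 : ∀ k : F, k ≠ 0 → p ≠ pt k := fun k hk e => hk (hinj k 0 (by rw [hp0, e]))
    simp only [List.nodup_cons, List.mem_cons, List.not_mem_nil, or_false, not_or, List.nodup_nil, and_true]
    exact ⟨⟨hne, hne0 1 one_ne_zero, hne0 ω hω0, hne0 _ (pow_ne_zero 2 hω0)⟩,
      ⟨(hq' 1).symm, (hq' ω).symm, (hq' _).symm⟩,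
      ⟨fun e => hω1 (hinj _ _ e).symm, fun e => hω2.1 (hinj _ _ e).symm⟩,
      fun e => hω2.2 (hinj _ _ e).symm, not_false⟩
  · have cp : ∀ k, Commute p (pt k) := fun k => hp0 ▸ corth 0 k
    simp [hpq, hpq.symm, cp, cq, corth, fun k => (cp k).symm, fun k => (cq k).symm]
  · apply φ.injective
    have h3 : H (v + w) (v + w) = 0 := by simpa using iso 1
    rw [map_mul, map_mul, map_mul, map_mul, map_one, ev, ew, hpt, hpt, hpt,
      T_congr C (show v + (1 : F) • w = v + w by rw [one_smul]) _ h3]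
    simp only [bar, ← map_mul]
    rw [five C hω hv hw hvw h3 (iso ω) (iso (ω ^ 2)), map_one]
  · intro u hu hup huq cup cuq hall
    obtain ⟨e, he, he0, ee⟩ := isTv_of_mem C hE' ⟨u, hu, rfl⟩
    have h1 := orth_of_commute C he hv he0 hv0 (by rw [← ev, ← ee]; exact (hcm _ _).2 cup)
    have h2 := orth_of_commute C he hw he0 hw0 (by rw [← ew, ← ee]; exact (hcm _ _).2 cuq)
    by_contra hno
    obtain ⟨p', hpv, hpw⟩ := exists_dual_pair C hv0 hind 0
    have hind' : ∀ k : F, k • w ≠ v := fun k hk => by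
      have hk0 : k ≠ 0 := fun e' => hv0 (by rw [← hk, e', zero_smul])
      exact hind k⁻¹ (by rw [← hk, smul_smul, inv_mul_cancel₀ hk0, one_smul])
    obtain ⟨q', hqw, hqv⟩ := exists_dual_pair C hw0 hind' 0
    apply hno
    refine hspan u e he ee he0 hup huq (C.σ (H p' e)) (C.σ (H q' e)) (ext_form C fun y => ?_)
    have h0 : H (y - H y v • p' - H y w • q') e = 0 := by
      by_contra hz
      set x := (H (y - H y v • p' - H y w • q') e)⁻¹ • (y - H y v • p' - H y w • q') with hx
      have xv : H x v = 0 := by simp [hx, form_smul_left, form_sub_left, hpv, hqv]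
      have xw : H x w = 0 := by simp [hx, form_smul_left, form_sub_left, hpw, hqw]
      have xe : H x e = 1 := by rw [hx, form_smul_left, inv_mul_cancel₀ hz]
      have ex : H e x = 1 := by rw [← form_conj C x e, xe, map_one]
      obtain ⟨t₀, ht₀⟩ := exists_trace_one C
      set x' := x + (t₀ * H x x) • e with hx'
      have hxx : H x' x' = 0 := by
        simp only [hx', form_add_left, form_add_right C, form_smul_left, form_smul_right C, xe, ex, he]
        rw [map_mul, form_conj C]
        linear_combination (H x x) * ht₀ + (H x x) * two_eq_zero C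
      have xe' : H x' e = 1 := by rw [hx', form_add_left, xe, form_smul_left, he, mul_zero, add_zero]
      have hx0 : x' ≠ 0 := fun e' => by rw [e', form_zero_left] at xe'; exact zero_ne_one xe'
      have hy' := hall _ (hmem x' hxx hx0)
        ((hcm _ _).1 (by
          rw [φ.apply_symm_apply, ev]
          exact commute_T C _ _ (by rw [hx', form_add_left, xv, form_smul_left, h1, mul_zero, add_zero])))
        ((hcm _ _).1 (by
          rw [φ.apply_symm_apply, ew]
          exact commute_T C _ _ (by rw [hx', form_add_left, xw, form_smul_left, h2, mul_zero, add_zero])))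
      rw [← hcm, φ.apply_symm_apply, ee] at hy'
      rw [orth_of_commute C hxx he hx0 he0 hy'] at xe'
      exact zero_ne_one xe'
    rw [form_sub_left, form_sub_left, form_smul_left, form_smul_left] at h0
    have h1' := congrArg C.σ (show H y e = H y v * H p' e + H y w * H q' e by linear_combination h0)
    rw [form_conj C, map_add, map_mul, map_mul, form_conj C y v, form_conj C y w] at h1'
    rw [h1', form_add_left, form_smul_left, form_smul_left]
    ring
  · intro x hx y hy z hz hn hc hprod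
    simp only [List.mem_cons, List.not_mem_nil, or_false, forall_eq_or_imp, forall_eq] at hc
    obtain ⟨⟨-, -, cpx, cpy, cpz⟩, ⟨-, -, cqx, cqy, cqz⟩, ⟨-, -, -, cxy, cxz⟩, ⟨-, -, -, -, cyz⟩, -⟩ := hc
    simp only [List.nodup_cons, List.mem_cons, List.not_mem_nil, or_false, not_or, List.nodup_nil,
      and_true] at hn
    obtain ⟨e, he, he0, ee⟩ := isTv_of_mem C hE' ⟨x, hx, rfl⟩
    obtain ⟨f, hf, hf0, ef⟩ := isTv_of_mem C hE' ⟨y, hy, rfl⟩
    obtain ⟨g, hg, hg0, eg⟩ := isTv_of_mem C hE' ⟨z, hz, rfl⟩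
    have orth : ∀ {a b : Q} {u u' : V} (hu : H u u = 0) (hu' : H u' u' = 0), φ a = bar (T C u hu) →
        φ b = bar (T C u' hu') → u ≠ 0 → u' ≠ 0 → Commute a b → H u u' = 0 :=
      fun hu hu' ea eb hu0 hu0' h => orth_of_commute C hu hu' hu0 hu0' (by rw [← ea, ← eb]; exact (hcm _ _).2 h)
    have hsum := sum_eq_zero_of_bar C hv hw he hf hg hv0 hvw (orth hv he ev ee hv0 he0 cpx)
      (orth hv hf ev ef hv0 hf0 cpy) (orth hv hg ev eg hv0 hg0 cpz) (orth hw he ew ee hw0 he0 cqx)
      (orth hw hf ew ef hw0 hf0 cqy) (orth hw hg ew eg hw0 hg0 cqz) (orth he hf ee ef he0 hf0 cxy)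
      (orth he hg ee eg he0 hg0 cxz) (orth hf hg ef eg hf0 hg0 cyz)
      (by rw [← ev, ← ew, ← ee, ← ef, ← eg]; simp only [← map_mul]; rw [hprod, map_one])
    obtain ⟨⟨-, npx, npy, npz⟩, ⟨nqx, nqy, nqz⟩, -⟩ := hn
    obtain ⟨s1, t1, r1⟩ := mem_span_of_sum C hv0 hw0 hind hsum
    obtain ⟨s2, t2, r2⟩ := mem_span_of_sum C (e := f) (f := e) (g := g) hv0 hw0 hind
      (fun a => (by abel : _ = _).trans (hsum a))
    obtain ⟨s3, t3, r3⟩ := mem_span_of_sum C (e := g) (f := f) (g := e) hv0 hw0 hind
      (fun a => (by abel : _ = _).trans (hsum a))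
    exact ⟨hspan x e he ee he0 (Ne.symm npx) (Ne.symm nqx) s1 t1 r1, hspan y f hf ef hf0 (Ne.symm npy) (Ne.symm nqy) s2 t2 r2,
      hspan z g hg eg hg0 (Ne.symm npz) (Ne.symm nqz) s3 t3 r3⟩

end CfsgLib.USixCover
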