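import Cfsg.Agent.UGeom.Eichler
import Cfsg.Agent.UGeom.Center

/-!
In a central extension of `PSU₆(2)` by a group of exponent two every involution lifts to an involution:
orthogonal transvections have commuting lifts, five transvections on a totally isotropic line have product
one, so all their lifts are involutions, and every involution is a product of orthogonal transvections.
-/

set_option autoImplicit false

namespace CfsgLib.USixCover

open Matrix CfsgLib.UGeom
open scoped commutatorElement

variable {F : Type*} [Field F] [Fintype F]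

local notation "H" => Cfsg.hermForm 6 F 2
local notation "V" => (Fin 6 → F)
local notation "S" => Cfsg.SU 6 F 2
local notation "mat" A:max => (((A : S) : Matrix.SpecialLinearGroup (Fin 6) F) : Matrix (Fin 6) (Fin 6) F)

theorem two_eq_zero (C : Conj F 2) : (2 : F) = 0 := by
  have h := FiniteField.cast_card_eq_zero F
  rw [C.card] at h
  have h4 : (2 : F) * 2 = 0 := by push_cast at h; linear_combination h
  exact (mul_eq_zero.1 h4).elim id id

theorem one_trace (C : Conj F 2) : (1 : F) + C.σ 1 = 0 := by
  rw [map_one, one_add_one_eq_two, two_eq_zero C]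

theorem exists_omega (C : Conj F 2) : ∃ ω : F, ω ^ 2 + ω + 1 = 0 := by
  classical
  obtain ⟨ω, -, hω⟩ := Finset.exists_mem_notMem_of_card_lt_card
    (s := ({0, 1} : Finset F)) (t := Finset.univ) (by
      rw [Finset.card_univ, C.card]
      exact lt_of_le_of_lt Finset.card_le_two (by norm_num))
  simp only [Finset.mem_insert, Finset.mem_singleton, not_or] at hω
  refine ⟨ω, ?_⟩
  have h4 : ω ^ 4 = ω := by
    have := FiniteField.pow_card ω
    rwa [C.card] at this
  have e : (ω * (ω - 1)) * (ω ^ 2 + ω + 1) = 0 := by linear_combination h4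
  exact (mul_eq_zero.1 e).resolve_left (mul_ne_zero hω.1 (sub_ne_zero.2 hω.2))

theorem eq_one_of_fixed (C : Conj F 2) {b : F} (hb : C.σ b = b) (h0 : b ≠ 0) : b = 1 := by
  rw [C.pow, sq] at hb
  exact mul_right_cancel₀ h0 (hb.trans (one_mul b).symm)

/-- The transvection at an isotropic vector. -/
def T (C : Conj F 2) (v : V) (hv : H v v = 0) : S := utv C v 1 hv (one_trace C)

theorem T_apply (C : Conj F 2) (v : V) (hv : H v v = 0) (x : V) :
    mat (T C v hv) *ᵥ x = x + H x v • v := by
  rw [T, utv_mulVec, one_mul]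

theorem T_congr (C : Conj F 2) {v w : V} (h : v = w) (hv : H v v = 0) (hw : H w w = 0) :
    T C v hv = T C w hw := by subst h; rfl

theorem T_conj (C : Conj F 2) (A : S) (v : V) (hv : H v v = 0) :
    A * T C v hv * A⁻¹ = T C (mat A *ᵥ v) (by rw [SU_form A, hv]) :=
  utv_conj C A v 1 hv _

theorem T_smul (C : Conj F 2) {a : F} (ha : a ≠ 0) (v : V) (hv : H v v = 0) (hav : H (a • v) (a • v) = 0) :
    T C (a • v) hav = T C v hv := by
  refine SU_ext fun x => ?_
  have h : C.σ a * a = 1 := eq_one_of_fixed C (by rw [map_mul, C.invol, mul_comm])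
    (mul_ne_zero ((map_ne_zero C.σ).2 ha) ha)
  rw [T_apply, T_apply, smul_smul, form_smul_right C]
  congr 2
  linear_combination (H x v) * h

theorem form_swap (C : Conj F 2) {v w : V} (h : H v w = 0) : H w v = 0 := by
  rw [← form_conj C v w, h, map_zero]

theorem polarize (C : Conj F 2) (P : V → Prop) (hP : ∀ (k : F) (a b : V), P a → P b → P (k • a + b))
    (hiso : ∀ a, P a → H a a = 0) {a b : V} (ha : P a) (hb : P b) : H a b = 0 := by
  obtain ⟨ω, hω⟩ := exists_omega C
  have h2 := two_eq_zero C
  have mix : ∀ k : F, k * H a b + C.σ k * H b a = 0 := fun k => by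
    have h := hiso _ (hP k a b ha hb)
    simp only [form_add_left, form_add_right C, form_smul_left, form_smul_right C, hiso a ha,
      hiso b hb, mul_zero, zero_add, add_zero] at h
    linear_combination h
  have e1 := mix 1
  have e2 := mix ω
  rw [map_one, one_mul, one_mul] at e1
  rw [C.pow] at e2
  linear_combination -(ω ^ 2) * e1 + e2 + (H a b) * hω - (H a b) * ω * h2

theorem exists_aniso_perp (C : Conj F 2) {v w : V} (hv : v ≠ 0) (hw : w ≠ 0)
    (h1 : ∀ a : F, a • v ≠ w) (h2 : ∀ a : F, a • w ≠ v) :
    ∃ z, H z v = 0 ∧ H z w = 0 ∧ H z z = 1 := by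
  obtain ⟨y, hyv, hyw⟩ := exists_dual_pair C hv h1 0
  obtain ⟨y', hy'w, hy'v⟩ := exists_dual_pair C hw h2 0
  let f : V →ₗ[F] (Fin 4 → F) :=
    { toFun := fun x => ![H x v, H x w, H x y, H x y']
      map_add' := fun a b => by funext i; fin_cases i <;> simp [form_add_left]
      map_smul' := fun c a => by funext i; fin_cases i <;> simp [form_smul_left] }
  have hf : ¬ Function.Injective f := fun hi => by
    have := LinearMap.finrank_le_finrank_of_injective hi
    simp at this
  rw [← LinearMap.ker_eq_bot] at hf
  obtain ⟨u, hu, hu0⟩ := (Submodule.ne_bot_iff _).1 hf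
  have g0 : H u v = 0 := congrFun hu 0
  have g1 : H u w = 0 := congrFun hu 1
  have g2 : H u y = 0 := congrFun hu 2
  have g3 : H u y' = 0 := congrFun hu 3
  by_contra hno
  push Not at hno
  have hiso : ∀ a, H a v = 0 ∧ H a w = 0 → H a a = 0 := fun a ha => by
    by_contra h0
    exact hno a ha.1 ha.2 (eq_one_of_fixed C (form_conj C a a) h0)
  obtain ⟨x, hx⟩ := exists_form_ne_zero C hu0
  refine hx ?_
  have h := polarize C (fun a => H a v = 0 ∧ H a w = 0) (fun k a b ha hb => ⟨by
      rw [form_add_left, form_smul_left, ha.1, hb.1, mul_zero, add_zero], by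
      rw [form_add_left, form_smul_left, ha.2, hb.2, mul_zero, add_zero]⟩) hiso (a := u)
    (b := x - H x v • y - H x w • y') ⟨g0, g1⟩ ⟨by
      simp only [form_sub_left, form_smul_left, hyv, hy'v]; ring, by
      simp only [form_sub_left, form_smul_left, hyw, hy'w]; ring⟩
  rw [form_sub_right C, form_sub_right C, form_smul_right C, form_smul_right C, g2, g3, mul_zero,
    mul_zero, sub_zero, sub_zero] at h
  exact h

/-- A transvection is a commutator inside the centraliser of an orthogonal one. -/
theorem exists_commutator (C : Conj F 2) {v w : V} (hv : H v v = 0) (hw : H w w = 0) (hvw : H v w = 0)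
    (hv0 : v ≠ 0) (hw0 : w ≠ 0) (h1 : ∀ a : F, a • v ≠ w) (h2 : ∀ a : F, a • w ≠ v) :
    ∃ A B : S, Commute A (T C v hv) ∧ Commute B (T C v hv) ∧ T C w hw = ⁅A, B⁆ := by
  obtain ⟨ω, hω⟩ := exists_omega C
  have two := two_eq_zero C
  obtain ⟨z, hzv, hzw, hzz⟩ := exists_aniso_perp C hv0 hw0 h1 h2
  obtain ⟨t, ht⟩ := exists_trace_one C
  set z' : V := ω • z with hz'
  have hzv' : H z' v = 0 := by rw [hz', form_smul_left, hzv, mul_zero]
  have hzw' : H z' w = 0 := by rw [hz', form_smul_left, hzw, mul_zero]
  have htr : ∀ x : V, ∃ a : F, a + C.σ a + H x x = 0 := fun x => ⟨-(t * H x x), by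
    rw [map_neg, map_mul, form_conj C]; linear_combination -(H x x) * ht⟩
  obtain ⟨a, ha⟩ := htr z
  obtain ⟨a', ha'⟩ := htr z'
  have hcomm : ∀ (z₁ : V) (a₁ : F) (hz₁ : H z₁ w = 0) (ha₁ : a₁ + C.σ a₁ + H z₁ z₁ = 0), H z₁ v = 0 →
      Commute (eich C w z₁ a₁ hw hz₁ ha₁) (T C v hv) := fun z₁ a₁ hz₁ ha₁ hz₁v => by
    have he : mat (eich C w z₁ a₁ hw hz₁ ha₁) *ᵥ v = v := by
      rw [eich_mulVec, hvw, form_swap C hz₁v]
      simp
    have := T_conj C (eich C w z₁ a₁ hw hz₁ ha₁) v hv
    rw [T_congr C he _ hv] at this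
    exact mul_inv_eq_iff_eq_mul.1 this
  refine ⟨eich C w z a hw hzw ha, eich C w z' a' hw hzw' ha', hcomm _ _ _ _ hzv, hcomm _ _ _ _ hzv', ?_⟩
  have hδ : H z z' - H z' z = 1 := by
    rw [hz', form_smul_left, form_smul_right C, hzz, C.pow]
    linear_combination hω - (ω + 1) * two
  have key : eich C w z a hw hzw ha * eich C w z' a' hw hzw' ha' =
      T C w hw * (eich C w z' a' hw hzw' ha' * eich C w z a hw hzw ha) := by
    refine SU_ext fun x => ?_
    have hwz : H w z = 0 := form_swap C hzw
    have hwz' : H w z' = 0 := form_swap C hzw'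
    simp only [SU_coe_mul, ← Matrix.mulVec_mulVec, eich_mulVec, T, utv_mulVec, form_add_left,
      form_smul_left, hw, hzw, hzw', hwz, hwz']
    rw [← hδ]
    module
  rw [commutatorElement_def, key]
  group

theorem braid (C : Conj F 2) {v z : V} (hv : H v v = 0) (hz : H z z = 0) (h : H z v = 1) :
    T C z hz * T C v hv * (T C z hz)⁻¹ = T C v hv * T C z hz * (T C v hv)⁻¹ := by
  rw [T_conj, T_conj]
  refine T_congr C ?_ _ _
  rw [T_apply, T_apply, h, one_smul, show H v z = 1 by rw [← form_conj C z v, h, map_one], one_smul,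
    add_comm]

theorem five (C : Conj F 2) {ω : F} (hω : ω ^ 2 + ω + 1 = 0) {v w : V} (hv : H v v = 0) (hw : H w w = 0)
    (hvw : H v w = 0) (h3 : H (v + w) (v + w) = 0) (h4 : H (v + ω • w) (v + ω • w) = 0)
    (h5 : H (v + ω ^ 2 • w) (v + ω ^ 2 • w) = 0) :
    T C v hv * (T C w hw * (T C _ h3 * (T C _ h4 * T C _ h5))) = 1 := by
  refine SU_ext fun x => ?_
  have hwv := form_swap C hvw
  have two := two_eq_zero C
  simp only [SU_coe_mul, ← Matrix.mulVec_mulVec, T_apply, form_add_left, form_add_right C, form_smul_left,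
    form_smul_right C, hv, hw, hvw, hwv, mul_zero, add_zero, zero_add]
  rw [show mat (1 : S) *ᵥ x = x from Matrix.one_mulVec x]
  simp only [C.pow]
  match_scalars
  · ring
  · linear_combination (2 * H x v) * two + (H x w) * hω + (H x w) * (ω * (ω - 1)) * hω
  · linear_combination (H x w) * two + (H x v) * hω + (H x w) * ((ω - 1) * (1 + ω ^ 3 + 1)) * hω + (H x w) * two

/-- Every involution of `SU₆(2)` is a product of orthogonal transvections. -/
theorem exists_list (C : Conj F 2) (g : S) (hg : g * g = 1) :
    ∃ L : List {v : V // H v v = 0}, g = (L.map fun v => T C v.1 v.2).prod ∧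
      (∀ v ∈ L, v.1 ≠ 0 ∧ ∃ x, v.1 = mat g *ᵥ x + x) ∧ L.Pairwise fun v w => H v.1 w.1 = 0 := by
  classical
  induction hk : (Finset.univ.filter fun x : V => mat g *ᵥ x ≠ x).card using Nat.strong_induction_on
    generalizing g with
  | _ k ih =>
    have two := two_eq_zero C
    have hgg : ∀ x : V, mat g *ᵥ (mat g *ᵥ x) = x := fun x => by
      rw [Matrix.mulVec_mulVec, ← SU_coe_mul, hg]
      exact Matrix.one_mulVec x
    have hsym : ∀ x y : V, H (mat g *ᵥ x) y = H x (mat g *ᵥ y) := fun x y => by
      rw [← SU_form g x (mat g *ᵥ y), hgg]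
    have hadd : ∀ x : V, x + x = 0 := fun x => by rw [← two_smul F x, two, zero_smul]
    by_cases hall : ∀ x : V, H (mat g *ᵥ x + x) x = 0
    · refine ⟨[], ?_, by simp, List.Pairwise.nil⟩
      refine SU_ext fun x => ?_
      rw [List.map_nil, List.prod_nil, show mat (1 : S) *ᵥ x = x from Matrix.one_mulVec x]
      obtain ⟨ω, hω⟩ := exists_omega C
      have h0 : mat g *ᵥ x + x = 0 := ext_form C fun y => by
        rw [form_zero_left]
        have mix : ∀ k : F, k * H (mat g *ᵥ x + x) y + C.σ k * H (mat g *ᵥ y + y) x = 0 := fun k => by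
          have h := hall (k • x + y)
          have hx := hall x
          have hy := hall y
          simp only [Matrix.mulVec_add, Matrix.mulVec_smul, form_add_left, form_add_right C,
            form_smul_left, form_smul_right C] at h hx hy ⊢
          linear_combination h - (k * C.σ k) * hx - hy
        have e1 := mix 1
        have e2 := mix ω
        rw [map_one, one_mul, one_mul] at e1
        rw [C.pow] at e2
        linear_combination -(ω ^ 2) * e1 + e2 + (H (mat g *ᵥ x + x) y) * hω - (H (mat g *ᵥ x + x) y) * ω * two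
      have := congrArg (fun u => u + x) h0
      simpa [add_assoc, hadd] using this
    · push Not at hall
      obtain ⟨x, hx⟩ := hall
      set v := mat g *ᵥ x + x with hvdef
      have hgv : mat g *ᵥ v = v := by rw [hvdef, Matrix.mulVec_add, hgg, add_comm]
      have hv : H v v = 0 := by
        conv_lhs => arg 5; rw [hvdef]
        rw [form_add_right C, ← hsym, hgv]
        linear_combination (H v x) * two
      have hvx : H v x = 1 := by
        refine eq_one_of_fixed C ?_ hx
        rw [hvdef, form_add_left, map_add, form_conj C, form_conj C, ← hsym]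
      have hxv : H x v = 1 := by rw [← form_conj C v x, hvx, map_one]
      have hcomm : Commute g (T C v hv) := by
        have := T_conj C g v hv
        rw [T_congr C hgv _ hv] at this
        exact mul_inv_eq_iff_eq_mul.1 this
      have hTT : T C v hv * T C v hv = 1 := by
        refine SU_ext fun y => ?_
        rw [SU_coe_mul, ← Matrix.mulVec_mulVec, T_apply, T_apply, form_add_left, form_smul_left, hv,
          mul_zero, add_zero, add_assoc, ← add_smul, ← two_mul, two, zero_mul, zero_smul, add_zero]
        exact (Matrix.one_mulVec y).symm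
      set g' := g * T C v hv with hg'
      have hg'2 : g' * g' = 1 := by
        rw [hg', hcomm.symm.mul_mul_mul_comm, hg, hTT, one_mul]
      have hg'apply : ∀ y : V, mat g' *ᵥ y = mat g *ᵥ y + H y v • v := fun y => by
        rw [hg', SU_coe_mul, ← Matrix.mulVec_mulVec, T_apply, Matrix.mulVec_add, Matrix.mulVec_smul, hgv]
      have hlt : (Finset.univ.filter fun y : V => mat g' *ᵥ y ≠ y).card < k := by
        rw [← hk]
        refine Finset.card_lt_card ((Finset.ssubset_iff_of_subset fun y hy => ?_).2 ⟨x, ?_, ?_⟩)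
        · simp only [Finset.mem_filter, Finset.mem_univ, true_and, ne_eq] at hy ⊢
          intro h
          apply hy
          rw [hg'apply, h, hvdef, form_add_right C, ← hsym, h, ← two_mul, two, zero_mul, zero_smul,
            add_zero]
        · simp only [Finset.mem_filter, Finset.mem_univ, true_and, ne_eq]
          intro h
          apply hx
          rw [hvdef, h, hadd, form_zero_left]
        · simp only [Finset.mem_filter, Finset.mem_univ, true_and, not_not]
          rw [hg'apply, hxv, one_smul, hvdef, ← add_assoc, hadd, zero_add]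
      obtain ⟨L, hL, hmem, hpair⟩ := ih _ hlt g' hg'2 rfl
      have hprop : ∀ u ∈ L, H v u.1 = 0 ∧ ∃ y, u.1 = mat g *ᵥ y + y := by
        intro u hu
        obtain ⟨-, y, hy⟩ := hmem u hu
        rw [hg'apply] at hy
        refine ⟨?_, y + H y v • x, ?_⟩
        · rw [hy, form_add_right C, form_add_right C, form_smul_right C, hv, mul_zero, add_zero,
            ← hsym, hgv, ← two_mul, two, zero_mul]
        · rw [hy, Matrix.mulVec_add, Matrix.mulVec_smul, hvdef]
          module
      refine ⟨⟨v, hv⟩ :: L, ?_, ?_, ?_⟩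
      · rw [List.map_cons, List.prod_cons, ← hL, hg', ← mul_assoc, ← hcomm.eq, mul_assoc, hTT, mul_one]
      · intro u hu
        rcases List.mem_cons.1 hu with rfl | hu
        · refine ⟨fun h0 => hx ?_, x, hvdef⟩
          change v = 0 at h0
          rw [h0, form_zero_left]
        · exact ⟨(hmem u hu).1, (hprop u hu).2⟩
      · exact List.pairwise_cons.2 ⟨fun u hu => (hprop u hu).1, hpair⟩

end CfsgLib.USixCover
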